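import Cfsg.Agent.Lib.H35.TCMHeB.Chk
set_option autoImplicit false
set_option maxRecDepth 100000
set_option linter.all false
namespace H35.TCMHeB
open H35.TC
section
variable {G : Type} [Group G] {g : Lt → G} {H : Subgroup G}
theorem rf_0 (hinv : ∀ x, g (inv x) = (g x)⁻¹) (hr : ∀ r ∈ rels, (r.map g).prod = 1) : (([.c, .c, .c] : List Lt).map g).prod = 1 := hr _ (by decide +kernel)
theorem rb_0 (hinv : ∀ x, g (inv x) = (g x)⁻¹) (hr : ∀ r ∈ rels, (r.map g).prod = 1) : (([.ci, .ci, .ci] : List Lt).map g).prod = 1 := inv_at hinv (rf_0 hinv hr)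
theorem rf_1 (hinv : ∀ x, g (inv x) = (g x)⁻¹) (hr : ∀ r ∈ rels, (r.map g).prod = 1) : (([.b, .b, .b] : List Lt).map g).prod = 1 := hr _ (by decide +kernel)
theorem rb_1 (hinv : ∀ x, g (inv x) = (g x)⁻¹) (hr : ∀ r ∈ rels, (r.map g).prod = 1) : (([.bi, .bi, .bi] : List Lt).map g).prod = 1 := inv_at hinv (rf_1 hinv hr)
theorem rf_2 (hinv : ∀ x, g (inv x) = (g x)⁻¹) (hr : ∀ r ∈ rels, (r.map g).prod = 1) : (([.c, .bi, .a, .bi, .ci, .bi, .a, .a, .b, .a, .a, .a] : List Lt).map g).prod = 1 := hr _ (by decide +kernel)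
theorem rb_2 (hinv : ∀ x, g (inv x) = (g x)⁻¹) (hr : ∀ r ∈ rels, (r.map g).prod = 1) : (([.ai, .ai, .ai, .bi, .ai, .ai, .b, .c, .b, .ai, .b, .ci] : List Lt).map g).prod = 1 := inv_at hinv (rf_2 hinv hr)
theorem rf_3 (hinv : ∀ x, g (inv x) = (g x)⁻¹) (hr : ∀ r ∈ rels, (r.map g).prod = 1) : (([.ci, .b, .ai, .b, .ci, .bi, .a, .bi, .c, .a, .a, .b, .ai, .ai] : List Lt).map g).prod = 1 := hr _ (by decide +kernel)
theorem rb_3 (hinv : ∀ x, g (inv x) = (g x)⁻¹) (hr : ∀ r ∈ rels, (r.map g).prod = 1) : (([.a, .a, .bi, .ai, .ai, .ci, .b, .ai, .b, .c, .bi, .a, .bi, .c] : List Lt).map g).prod = 1 := inv_at hinv (rf_3 hinv hr)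
theorem rf_4 (hinv : ∀ x, g (inv x) = (g x)⁻¹) (hr : ∀ r ∈ rels, (r.map g).prod = 1) : (([.a, .a, .b, .a, .bi, .ai, .ai, .b, .ai, .b, .a, .bi, .a, .bi] : List Lt).map g).prod = 1 := hr _ (by decide +kernel)
theorem rb_4 (hinv : ∀ x, g (inv x) = (g x)⁻¹) (hr : ∀ r ∈ rels, (r.map g).prod = 1) : (([.b, .ai, .b, .ai, .bi, .a, .bi, .a, .a, .b, .ai, .bi, .ai, .ai] : List Lt).map g).prod = 1 := inv_at hinv (rf_4 hinv hr)
theorem rf_5 (hinv : ∀ x, g (inv x) = (g x)⁻¹) (hr : ∀ r ∈ rels, (r.map g).prod = 1) : (([.c, .ai, .c, .b, .ci, .a, .ci, .a, .b, .a, .bi, .ai, .b, .a, .a] : List Lt).map g).prod = 1 := hr _ (by decide +kernel)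
theorem rb_5 (hinv : ∀ x, g (inv x) = (g x)⁻¹) (hr : ∀ r ∈ rels, (r.map g).prod = 1) : (([.ai, .ai, .bi, .a, .b, .ai, .bi, .ai, .c, .ai, .c, .bi, .ci, .a, .ci] : List Lt).map g).prod = 1 := inv_at hinv (rf_5 hinv hr)
theorem rf_6 (hinv : ∀ x, g (inv x) = (g x)⁻¹) (hr : ∀ r ∈ rels, (r.map g).prod = 1) : (([.c, .ai, .c, .bi, .a, .a, .b, .a, .ci, .a, .ci, .a, .a, .a, .a] : List Lt).map g).prod = 1 := hr _ (by decide +kernel)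
theorem rb_6 (hinv : ∀ x, g (inv x) = (g x)⁻¹) (hr : ∀ r ∈ rels, (r.map g).prod = 1) : (([.ai, .ai, .ai, .ai, .c, .ai, .c, .ai, .bi, .ai, .ai, .b, .ci, .a, .ci] : List Lt).map g).prod = 1 := inv_at hinv (rf_6 hinv hr)
theorem rf_7 (hinv : ∀ x, g (inv x) = (g x)⁻¹) (hr : ∀ r ∈ rels, (r.map g).prod = 1) : (([.ci, .a, .ci, .a, .bi, .a, .a, .b, .c, .ai, .c, .a, .a, .a, .a] : List Lt).map g).prod = 1 := hr _ (by decide +kernel)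
theorem rb_7 (hinv : ∀ x, g (inv x) = (g x)⁻¹) (hr : ∀ r ∈ rels, (r.map g).prod = 1) : (([.ai, .ai, .ai, .ai, .ci, .a, .ci, .bi, .ai, .ai, .b, .ai, .c, .ai, .c] : List Lt).map g).prod = 1 := inv_at hinv (rf_7 hinv hr)
theorem rf_8 (hinv : ∀ x, g (inv x) = (g x)⁻¹) (hr : ∀ r ∈ rels, (r.map g).prod = 1) : (([.ci, .a, .ci, .ai, .ai, .b, .ai, .b, .c, .ai, .c, .a, .a, .a, .a] : List Lt).map g).prod = 1 := hr _ (by decide +kernel)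
theorem rb_8 (hinv : ∀ x, g (inv x) = (g x)⁻¹) (hr : ∀ r ∈ rels, (r.map g).prod = 1) : (([.ai, .ai, .ai, .ai, .ci, .a, .ci, .bi, .a, .bi, .a, .a, .c, .ai, .c] : List Lt).map g).prod = 1 := inv_at hinv (rf_8 hinv hr)
theorem rf_9 (hinv : ∀ x, g (inv x) = (g x)⁻¹) (hr : ∀ r ∈ rels, (r.map g).prod = 1) : (([.a, .b, .a, .bi, .a, .bi, .a, .b, .ai, .b, .ai, .b, .ai, .bi, .ai, .b] : List Lt).map g).prod = 1 := hr _ (by decide +kernel)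
theorem rb_9 (hinv : ∀ x, g (inv x) = (g x)⁻¹) (hr : ∀ r ∈ rels, (r.map g).prod = 1) : (([.bi, .a, .b, .a, .bi, .a, .bi, .a, .bi, .ai, .b, .ai, .b, .ai, .bi, .ai] : List Lt).map g).prod = 1 := inv_at hinv (rf_9 hinv hr)
theorem rf_10 (hinv : ∀ x, g (inv x) = (g x)⁻¹) (hr : ∀ r ∈ rels, (r.map g).prod = 1) : (([.a, .a, .b, .a, .a, .bi, .a, .bi, .a, .a, .b, .ai, .b, .ai, .ai, .bi] : List Lt).map g).prod = 1 := hr _ (by decide +kernel)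
theorem rb_10 (hinv : ∀ x, g (inv x) = (g x)⁻¹) (hr : ∀ r ∈ rels, (r.map g).prod = 1) : (([.b, .a, .a, .bi, .a, .bi, .ai, .ai, .b, .ai, .b, .ai, .ai, .bi, .ai, .ai] : List Lt).map g).prod = 1 := inv_at hinv (rf_10 hinv hr)
theorem rf_11 (hinv : ∀ x, g (inv x) = (g x)⁻¹) (hr : ∀ r ∈ rels, (r.map g).prod = 1) : (([.a, .ai] : List Lt).map g).prod = 1 := hr _ (by decide +kernel)
theorem rb_11 (hinv : ∀ x, g (inv x) = (g x)⁻¹) (hr : ∀ r ∈ rels, (r.map g).prod = 1) : (([.a, .ai] : List Lt).map g).prod = 1 := inv_at hinv (rf_11 hinv hr)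
theorem rf_12 (hinv : ∀ x, g (inv x) = (g x)⁻¹) (hr : ∀ r ∈ rels, (r.map g).prod = 1) : (([.ai, .a] : List Lt).map g).prod = 1 := hr _ (by decide +kernel)
theorem rb_12 (hinv : ∀ x, g (inv x) = (g x)⁻¹) (hr : ∀ r ∈ rels, (r.map g).prod = 1) : (([.ai, .a] : List Lt).map g).prod = 1 := inv_at hinv (rf_12 hinv hr)
theorem rf_13 (hinv : ∀ x, g (inv x) = (g x)⁻¹) (hr : ∀ r ∈ rels, (r.map g).prod = 1) : (([.b, .bi] : List Lt).map g).prod = 1 := hr _ (by decide +kernel)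
theorem rb_13 (hinv : ∀ x, g (inv x) = (g x)⁻¹) (hr : ∀ r ∈ rels, (r.map g).prod = 1) : (([.b, .bi] : List Lt).map g).prod = 1 := inv_at hinv (rf_13 hinv hr)
theorem rf_14 (hinv : ∀ x, g (inv x) = (g x)⁻¹) (hr : ∀ r ∈ rels, (r.map g).prod = 1) : (([.bi, .b] : List Lt).map g).prod = 1 := hr _ (by decide +kernel)
theorem rb_14 (hinv : ∀ x, g (inv x) = (g x)⁻¹) (hr : ∀ r ∈ rels, (r.map g).prod = 1) : (([.bi, .b] : List Lt).map g).prod = 1 := inv_at hinv (rf_14 hinv hr)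
theorem rf_15 (hinv : ∀ x, g (inv x) = (g x)⁻¹) (hr : ∀ r ∈ rels, (r.map g).prod = 1) : (([.c, .ci] : List Lt).map g).prod = 1 := hr _ (by decide +kernel)
theorem rb_15 (hinv : ∀ x, g (inv x) = (g x)⁻¹) (hr : ∀ r ∈ rels, (r.map g).prod = 1) : (([.c, .ci] : List Lt).map g).prod = 1 := inv_at hinv (rf_15 hinv hr)
theorem rf_16 (hinv : ∀ x, g (inv x) = (g x)⁻¹) (hr : ∀ r ∈ rels, (r.map g).prod = 1) : (([.ci, .c] : List Lt).map g).prod = 1 := hr _ (by decide +kernel)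
theorem rb_16 (hinv : ∀ x, g (inv x) = (g x)⁻¹) (hr : ∀ r ∈ rels, (r.map g).prod = 1) : (([.ci, .c] : List Lt).map g).prod = 1 := inv_at hinv (rf_16 hinv hr)
/-- the points of the nodes -/
noncomputable def cP (g : Lt → G) (H : Subgroup G) : ℕ → G ⧸ H := cc (fa g) lt P ((1 : G) : G ⧸ H)
theorem dp_a_0_s (hinv : ∀ x, g (inv x) = (g x)⁻¹) (hr : ∀ r ∈ rels, (r.map g).prod = 1) (hH : ∀ r ∈ subs, (r.map g).prod ∈ H)
    (j u : ℕ) (hu : u < M) (h : dp_a_0 j u = true) : Good (fa g) T MG M (cP g H) Lt.a u := by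
  unfold dp_a_0 at h
  rcases brec_true h with h | h
  · exact lS_good (T := T) (x := Lt.a) (by decide) hu [Lt.bi, Lt.ci, Lt.bi, Lt.a, Lt.a, Lt.b, Lt.a, Lt.a, Lt.a, Lt.c, Lt.bi] (hole_at (rf_2 hinv hr) 3 rfl) h
  · exact lS_good (T := T) (x := Lt.a) (by decide) hu [Lt.a, Lt.a, Lt.c, Lt.bi, Lt.a, Lt.bi, Lt.ci, Lt.bi, Lt.a, Lt.a, Lt.b] (hole_at (rf_2 hinv hr) 10 rfl) h
theorem dp_a_1_s (hinv : ∀ x, g (inv x) = (g x)⁻¹) (hr : ∀ r ∈ rels, (r.map g).prod = 1) (hH : ∀ r ∈ subs, (r.map g).prod ∈ H)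
    (j u : ℕ) (hu : u < M) (h : dp_a_1 j u = true) : Good (fa g) T MG M (cP g H) Lt.a u := by
  unfold dp_a_1 at h
  rcases brec_true h with h | h
  · exact lS_good (T := T) (x := Lt.a) (by decide) hu [Lt.a, Lt.c, Lt.bi, Lt.a, Lt.bi, Lt.ci, Lt.bi, Lt.a, Lt.a, Lt.b, Lt.a] (hole_at (rf_2 hinv hr) 11 rfl) h
  · exact lS_good (T := T) (x := Lt.a) (by decide) hu [Lt.a, Lt.b, Lt.a, Lt.a, Lt.a, Lt.c, Lt.bi, Lt.a, Lt.bi, Lt.ci, Lt.bi] (hole_at (rf_2 hinv hr) 7 rfl) h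
theorem dp_a_2_s (hinv : ∀ x, g (inv x) = (g x)⁻¹) (hr : ∀ r ∈ rels, (r.map g).prod = 1) (hH : ∀ r ∈ subs, (r.map g).prod ∈ H)
    (j u : ℕ) (hu : u < M) (h : dp_a_2 j u = true) : Good (fa g) T MG M (cP g H) Lt.a u := by
  unfold dp_a_2 at h
  rcases brec_true h with h | h
  · exact lF_good (T := T) (x := Lt.a) (by decide) [Lt.bi, Lt.ci, Lt.bi, Lt.a, Lt.a, Lt.b, Lt.a, Lt.a, Lt.a, Lt.c, Lt.bi] (hole_at (rf_2 hinv hr) 3 rfl) h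
  · exact lS_good (T := T) (x := Lt.a) (by decide) hu [Lt.ci, Lt.ai, Lt.ai, Lt.ai, Lt.ai, Lt.c, Lt.ai, Lt.c, Lt.ai, Lt.bi, Lt.ai, Lt.ai, Lt.b, Lt.ci] (hole_at (rb_6 hinv hr) 14 rfl) h
theorem dp_a_3_s (hinv : ∀ x, g (inv x) = (g x)⁻¹) (hr : ∀ r ∈ rels, (r.map g).prod = 1) (hH : ∀ r ∈ subs, (r.map g).prod ∈ H)
    (j u : ℕ) (hu : u < M) (h : dp_a_3 j u = true) : Good (fa g) T MG M (cP g H) Lt.a u := by
  unfold dp_a_3 at h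
  rcases brec_true h with h | h
  · exact dp_a_1_s hinv hr hH j u hu h
  · exact dp_a_2_s hinv hr hH j u hu h
theorem dp_a_4_s (hinv : ∀ x, g (inv x) = (g x)⁻¹) (hr : ∀ r ∈ rels, (r.map g).prod = 1) (hH : ∀ r ∈ subs, (r.map g).prod ∈ H)
    (j u : ℕ) (hu : u < M) (h : dp_a_4 j u = true) : Good (fa g) T MG M (cP g H) Lt.a u := by
  unfold dp_a_4 at h
  rcases brec_true h with h | h
  · exact dp_a_0_s hinv hr hH j u hu h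
  · exact dp_a_3_s hinv hr hH j u hu h
theorem dp_a_5_s (hinv : ∀ x, g (inv x) = (g x)⁻¹) (hr : ∀ r ∈ rels, (r.map g).prod = 1) (hH : ∀ r ∈ subs, (r.map g).prod ∈ H)
    (j u : ℕ) (hu : u < M) (h : dp_a_5 j u = true) : Good (fa g) T MG M (cP g H) Lt.a u := by
  unfold dp_a_5 at h
  rcases brec_true h with h | h
  · exact lS_good (T := T) (x := Lt.a) (by decide) hu [Lt.ci, Lt.bi, Lt.ai, Lt.ai, Lt.b, Lt.ai, Lt.c, Lt.ai, Lt.c, Lt.ai, Lt.ai, Lt.ai, Lt.ai, Lt.ci] (hole_at (rb_7 hinv hr) 6 rfl) h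
  · exact lS_good (T := T) (x := Lt.a) (by decide) hu [Lt.bi, Lt.a, Lt.a, Lt.b, Lt.a, Lt.bi, Lt.ai, Lt.ai, Lt.b, Lt.ai, Lt.b, Lt.a, Lt.bi] (hole_at (rf_4 hinv hr) 13 rfl) h
theorem dp_a_6_s (hinv : ∀ x, g (inv x) = (g x)⁻¹) (hr : ∀ r ∈ rels, (r.map g).prod = 1) (hH : ∀ r ∈ subs, (r.map g).prod ∈ H)
    (j u : ℕ) (hu : u < M) (h : dp_a_6 j u = true) : Good (fa g) T MG M (cP g H) Lt.a u := by
  unfold dp_a_6 at h
  rcases brec_true h with h | h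
  · exact lS_good (T := T) (x := Lt.a) (by decide) hu [Lt.b, Lt.a, Lt.a, Lt.a, Lt.c, Lt.bi, Lt.a, Lt.bi, Lt.ci, Lt.bi, Lt.a] (hole_at (rf_2 hinv hr) 8 rfl) h
  · exact dp_a_5_s hinv hr hH j u hu h
theorem dp_a_7_s (hinv : ∀ x, g (inv x) = (g x)⁻¹) (hr : ∀ r ∈ rels, (r.map g).prod = 1) (hH : ∀ r ∈ subs, (r.map g).prod ∈ H)
    (j u : ℕ) (hu : u < M) (h : dp_a_7 j u = true) : Good (fa g) T MG M (cP g H) Lt.a u := by
  unfold dp_a_7 at h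
  rcases brec_true h with h | h
  · exact lS_good (T := T) (x := Lt.a) (by decide) hu [Lt.ci, Lt.a, Lt.b, Lt.a, Lt.bi, Lt.ai, Lt.b, Lt.a, Lt.a, Lt.c, Lt.ai, Lt.c, Lt.b, Lt.ci] (hole_at (rf_5 hinv hr) 6 rfl) h
  · exact lF_good (T := T) (x := Lt.a) (by decide) [Lt.a, Lt.c, Lt.bi, Lt.a, Lt.bi, Lt.ci, Lt.bi, Lt.a, Lt.a, Lt.b, Lt.a] (hole_at (rf_2 hinv hr) 11 rfl) h
theorem dp_a_8_s (hinv : ∀ x, g (inv x) = (g x)⁻¹) (hr : ∀ r ∈ rels, (r.map g).prod = 1) (hH : ∀ r ∈ subs, (r.map g).prod ∈ H)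
    (j u : ℕ) (hu : u < M) (h : dp_a_8 j u = true) : Good (fa g) T MG M (cP g H) Lt.a u := by
  unfold dp_a_8 at h
  rcases brec_true h with h | h
  · exact lF_good (T := T) (x := Lt.a) (by decide) [Lt.a, Lt.b, Lt.a, Lt.a, Lt.a, Lt.c, Lt.bi, Lt.a, Lt.bi, Lt.ci, Lt.bi] (hole_at (rf_2 hinv hr) 7 rfl) h
  · exact lS_good (T := T) (x := Lt.a) (by decide) hu [Lt.ci, Lt.ai, Lt.ai, Lt.bi, Lt.a, Lt.b, Lt.ai, Lt.bi, Lt.ai, Lt.c, Lt.ai, Lt.c, Lt.bi, Lt.ci] (hole_at (rb_5 hinv hr) 14 rfl) h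
theorem dp_a_9_s (hinv : ∀ x, g (inv x) = (g x)⁻¹) (hr : ∀ r ∈ rels, (r.map g).prod = 1) (hH : ∀ r ∈ subs, (r.map g).prod ∈ H)
    (j u : ℕ) (hu : u < M) (h : dp_a_9 j u = true) : Good (fa g) T MG M (cP g H) Lt.a u := by
  unfold dp_a_9 at h
  rcases brec_true h with h | h
  · exact lS_good (T := T) (x := Lt.a) (by decide) hu [Lt.b, Lt.ai, Lt.ai, Lt.ci, Lt.b, Lt.ai, Lt.b, Lt.ci, Lt.bi, Lt.a, Lt.bi, Lt.c, Lt.a] (hole_at (rf_3 hinv hr) 11 rfl) h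
  · exact dp_a_8_s hinv hr hH j u hu h
theorem dp_a_10_s (hinv : ∀ x, g (inv x) = (g x)⁻¹) (hr : ∀ r ∈ rels, (r.map g).prod = 1) (hH : ∀ r ∈ subs, (r.map g).prod ∈ H)
    (j u : ℕ) (hu : u < M) (h : dp_a_10 j u = true) : Good (fa g) T MG M (cP g H) Lt.a u := by
  unfold dp_a_10 at h
  rcases brec_true h with h | h
  · exact dp_a_7_s hinv hr hH j u hu h
  · exact dp_a_9_s hinv hr hH j u hu h
theorem dp_a_11_s (hinv : ∀ x, g (inv x) = (g x)⁻¹) (hr : ∀ r ∈ rels, (r.map g).prod = 1) (hH : ∀ r ∈ subs, (r.map g).prod ∈ H)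
    (j u : ℕ) (hu : u < M) (h : dp_a_11 j u = true) : Good (fa g) T MG M (cP g H) Lt.a u := by
  unfold dp_a_11 at h
  rcases brec_true h with h | h
  · exact dp_a_6_s hinv hr hH j u hu h
  · exact dp_a_10_s hinv hr hH j u hu h
theorem dp_a_12_s (hinv : ∀ x, g (inv x) = (g x)⁻¹) (hr : ∀ r ∈ rels, (r.map g).prod = 1) (hH : ∀ r ∈ subs, (r.map g).prod ∈ H)
    (j u : ℕ) (hu : u < M) (h : dp_a_12 j u = true) : Good (fa g) T MG M (cP g H) Lt.a u := by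
  unfold dp_a_12 at h
  rcases brec_true h with h | h
  · exact lS_good (T := T) (x := Lt.a) (by decide) hu [Lt.bi, Lt.ai, Lt.ai, Lt.b, Lt.ai, Lt.b, Lt.a, Lt.bi, Lt.a, Lt.bi, Lt.a, Lt.a, Lt.b] (hole_at (rf_4 hinv hr) 4 rfl) h
  · exact lS_good (T := T) (x := Lt.a) (by decide) hu [Lt.a, Lt.b, Lt.a, Lt.bi, Lt.ai, Lt.ai, Lt.b, Lt.ai, Lt.b, Lt.a, Lt.bi, Lt.a, Lt.bi] (hole_at (rf_4 hinv hr) 1 rfl) h
theorem dp_a_13_s (hinv : ∀ x, g (inv x) = (g x)⁻¹) (hr : ∀ r ∈ rels, (r.map g).prod = 1) (hH : ∀ r ∈ subs, (r.map g).prod ∈ H)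
    (j u : ℕ) (hu : u < M) (h : dp_a_13 j u = true) : Good (fa g) T MG M (cP g H) Lt.a u := by
  unfold dp_a_13 at h
  rcases brec_true h with h | h
  · exact lH_good (T := T) (x := Lt.a) (by decide) [] [] (by rw [show cP g H 0 = _ from cc_zero]; exact sub_rel hinv (hH _ (by decide))) h
  · exact dp_a_12_s hinv hr hH j u hu h
theorem dp_a_14_s (hinv : ∀ x, g (inv x) = (g x)⁻¹) (hr : ∀ r ∈ rels, (r.map g).prod = 1) (hH : ∀ r ∈ subs, (r.map g).prod ∈ H)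
    (j u : ℕ) (hu : u < M) (h : dp_a_14 j u = true) : Good (fa g) T MG M (cP g H) Lt.a u := by
  unfold dp_a_14 at h
  rcases brec_true h with h | h
  · exact lS_good (T := T) (x := Lt.a) (by decide) hu [Lt.b, Lt.a, Lt.bi, Lt.ai, Lt.ai, Lt.b, Lt.ai, Lt.b, Lt.a, Lt.bi, Lt.a, Lt.bi, Lt.a] (hole_at (rf_4 hinv hr) 2 rfl) h
  · exact dp_a_13_s hinv hr hH j u hu h
theorem dp_a_15_s (hinv : ∀ x, g (inv x) = (g x)⁻¹) (hr : ∀ r ∈ rels, (r.map g).prod = 1) (hH : ∀ r ∈ subs, (r.map g).prod ∈ H)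
    (j u : ℕ) (hu : u < M) (h : dp_a_15 j u = true) : Good (fa g) T MG M (cP g H) Lt.a u := by
  unfold dp_a_15 at h
  rcases brec_true h with h | h
  · exact lS_good (T := T) (x := Lt.a) (by decide) hu [Lt.a, Lt.b, Lt.ai, Lt.bi, Lt.ai, Lt.ai, Lt.b, Lt.ai, Lt.b, Lt.ai, Lt.bi, Lt.a, Lt.bi] (hole_at (rb_4 hinv hr) 8 rfl) h
  · exact lF_good (T := T) (x := Lt.a) (by decide) [Lt.b, Lt.a, Lt.bi, Lt.ai, Lt.ai, Lt.b, Lt.ai, Lt.b, Lt.a, Lt.bi, Lt.a, Lt.bi, Lt.a] (hole_at (rf_4 hinv hr) 2 rfl) h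
theorem dp_a_16_s (hinv : ∀ x, g (inv x) = (g x)⁻¹) (hr : ∀ r ∈ rels, (r.map g).prod = 1) (hH : ∀ r ∈ subs, (r.map g).prod ∈ H)
    (j u : ℕ) (hu : u < M) (h : dp_a_16 j u = true) : Good (fa g) T MG M (cP g H) Lt.a u := by
  unfold dp_a_16 at h
  rcases brec_true h with h | h
  · exact lF_good (T := T) (x := Lt.a) (by decide) [Lt.b, Lt.ai, Lt.b, Lt.ai, Lt.b, Lt.ai, Lt.bi, Lt.ai, Lt.b, Lt.a, Lt.b, Lt.a, Lt.bi, Lt.a, Lt.bi] (hole_at (rf_9 hinv hr) 7 rfl) h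
  · exact lF_good (T := T) (x := Lt.a) (by decide) [Lt.a, Lt.ci, Lt.a, Lt.ci, Lt.a, Lt.bi, Lt.a, Lt.a, Lt.b, Lt.c, Lt.ai, Lt.c, Lt.a, Lt.a] (hole_at (rf_7 hinv hr) 14 rfl) h
theorem dp_a_17_s (hinv : ∀ x, g (inv x) = (g x)⁻¹) (hr : ∀ r ∈ rels, (r.map g).prod = 1) (hH : ∀ r ∈ subs, (r.map g).prod ∈ H)
    (j u : ℕ) (hu : u < M) (h : dp_a_17 j u = true) : Good (fa g) T MG M (cP g H) Lt.a u := by
  unfold dp_a_17 at h
  rcases brec_true h with h | h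
  · exact lF_good (T := T) (x := Lt.a) (by decide) [Lt.a, Lt.b, Lt.a, Lt.bi, Lt.ai, Lt.ai, Lt.b, Lt.ai, Lt.b, Lt.a, Lt.bi, Lt.a, Lt.bi] (hole_at (rf_4 hinv hr) 1 rfl) h
  · exact dp_a_16_s hinv hr hH j u hu h
theorem dp_a_18_s (hinv : ∀ x, g (inv x) = (g x)⁻¹) (hr : ∀ r ∈ rels, (r.map g).prod = 1) (hH : ∀ r ∈ subs, (r.map g).prod ∈ H)
    (j u : ℕ) (hu : u < M) (h : dp_a_18 j u = true) : Good (fa g) T MG M (cP g H) Lt.a u := by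
  unfold dp_a_18 at h
  rcases brec_true h with h | h
  · exact dp_a_15_s hinv hr hH j u hu h
  · exact dp_a_17_s hinv hr hH j u hu h
theorem dp_a_19_s (hinv : ∀ x, g (inv x) = (g x)⁻¹) (hr : ∀ r ∈ rels, (r.map g).prod = 1) (hH : ∀ r ∈ subs, (r.map g).prod ∈ H)
    (j u : ℕ) (hu : u < M) (h : dp_a_19 j u = true) : Good (fa g) T MG M (cP g H) Lt.a u := by
  unfold dp_a_19 at h
  rcases brec_true h with h | h
  · exact dp_a_14_s hinv hr hH j u hu h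
  · exact dp_a_18_s hinv hr hH j u hu h
theorem dp_a_20_s (hinv : ∀ x, g (inv x) = (g x)⁻¹) (hr : ∀ r ∈ rels, (r.map g).prod = 1) (hH : ∀ r ∈ subs, (r.map g).prod ∈ H)
    (j u : ℕ) (hu : u < M) (h : dp_a_20 j u = true) : Good (fa g) T MG M (cP g H) Lt.a u := by
  unfold dp_a_20 at h
  rcases brec_true h with h | h
  · exact lS_good (T := T) (x := Lt.a) (by decide) hu [Lt.ci, Lt.a, Lt.bi, Lt.a, Lt.a, Lt.b, Lt.c, Lt.ai, Lt.c, Lt.a, Lt.a, Lt.a, Lt.a, Lt.ci] (hole_at (rf_7 hinv hr) 2 rfl) h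
  · exact lS_good (T := T) (x := Lt.a) (by decide) hu [Lt.c, Lt.bi, Lt.a, Lt.bi, Lt.ci, Lt.bi, Lt.a, Lt.a, Lt.b, Lt.a, Lt.a] (hole_at (rf_2 hinv hr) 0 rfl) h
theorem dp_a_21_s (hinv : ∀ x, g (inv x) = (g x)⁻¹) (hr : ∀ r ∈ rels, (r.map g).prod = 1) (hH : ∀ r ∈ subs, (r.map g).prod ∈ H)
    (j u : ℕ) (hu : u < M) (h : dp_a_21 j u = true) : Good (fa g) T MG M (cP g H) Lt.a u := by
  unfold dp_a_21 at h
  rcases brec_true h with h | h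
  · exact lS_good (T := T) (x := Lt.a) (by decide) hu [Lt.a, Lt.bi, Lt.ai, Lt.ai, Lt.ci, Lt.b, Lt.ai, Lt.b, Lt.c, Lt.bi, Lt.a, Lt.bi, Lt.c] (hole_at (rb_3 hinv hr) 1 rfl) h
  · exact lF_good (T := T) (x := Lt.a) (by decide) [Lt.b, Lt.a, Lt.a, Lt.a, Lt.c, Lt.bi, Lt.a, Lt.bi, Lt.ci, Lt.bi, Lt.a] (hole_at (rf_2 hinv hr) 8 rfl) h
theorem dp_a_22_s (hinv : ∀ x, g (inv x) = (g x)⁻¹) (hr : ∀ r ∈ rels, (r.map g).prod = 1) (hH : ∀ r ∈ subs, (r.map g).prod ∈ H)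
    (j u : ℕ) (hu : u < M) (h : dp_a_22 j u = true) : Good (fa g) T MG M (cP g H) Lt.a u := by
  unfold dp_a_22 at h
  rcases brec_true h with h | h
  · exact lS_good (T := T) (x := Lt.a) (by decide) hu [Lt.bi, Lt.ai, Lt.ai, Lt.ci, Lt.b, Lt.ai, Lt.b, Lt.c, Lt.bi, Lt.a, Lt.bi, Lt.c, Lt.a] (hole_at (rb_3 hinv hr) 2 rfl) h
  · exact dp_a_21_s hinv hr hH j u hu h
theorem dp_a_23_s (hinv : ∀ x, g (inv x) = (g x)⁻¹) (hr : ∀ r ∈ rels, (r.map g).prod = 1) (hH : ∀ r ∈ subs, (r.map g).prod ∈ H)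
    (j u : ℕ) (hu : u < M) (h : dp_a_23 j u = true) : Good (fa g) T MG M (cP g H) Lt.a u := by
  unfold dp_a_23 at h
  rcases brec_true h with h | h
  · exact dp_a_20_s hinv hr hH j u hu h
  · exact dp_a_22_s hinv hr hH j u hu h
theorem dp_a_24_s (hinv : ∀ x, g (inv x) = (g x)⁻¹) (hr : ∀ r ∈ rels, (r.map g).prod = 1) (hH : ∀ r ∈ subs, (r.map g).prod ∈ H)
    (j u : ℕ) (hu : u < M) (h : dp_a_24 j u = true) : Good (fa g) T MG M (cP g H) Lt.a u := by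
  unfold dp_a_24 at h
  rcases brec_true h with h | h
  · exact lS_good (T := T) (x := Lt.a) (by decide) hu [Lt.b, Lt.a, Lt.ci, Lt.a, Lt.ci, Lt.a, Lt.a, Lt.a, Lt.a, Lt.c, Lt.ai, Lt.c, Lt.bi, Lt.a] (hole_at (rf_6 hinv hr) 6 rfl) h
  · exact lS_good (T := T) (x := Lt.a) (by decide) hu [Lt.bi, Lt.c, Lt.a, Lt.a, Lt.b, Lt.ai, Lt.ai, Lt.ci, Lt.b, Lt.ai, Lt.b, Lt.ci, Lt.bi] (hole_at (rf_3 hinv hr) 7 rfl) h
theorem dp_a_25_s (hinv : ∀ x, g (inv x) = (g x)⁻¹) (hr : ∀ r ∈ rels, (r.map g).prod = 1) (hH : ∀ r ∈ subs, (r.map g).prod ∈ H)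
    (j u : ℕ) (hu : u < M) (h : dp_a_25 j u = true) : Good (fa g) T MG M (cP g H) Lt.a u := by
  unfold dp_a_25 at h
  rcases brec_true h with h | h
  · exact lS_good (T := T) (x := Lt.a) (by decide) hu [Lt.bi, Lt.a, Lt.a, Lt.b, Lt.ai, Lt.bi, Lt.ai, Lt.ai, Lt.b, Lt.ai, Lt.b, Lt.ai, Lt.bi] (hole_at (rb_4 hinv hr) 6 rfl) h
  · exact dp_a_24_s hinv hr hH j u hu h
theorem dp_a_26_s (hinv : ∀ x, g (inv x) = (g x)⁻¹) (hr : ∀ r ∈ rels, (r.map g).prod = 1) (hH : ∀ r ∈ subs, (r.map g).prod ∈ H)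
    (j u : ℕ) (hu : u < M) (h : dp_a_26 j u = true) : Good (fa g) T MG M (cP g H) Lt.a u := by
  unfold dp_a_26 at h
  rcases brec_true h with h | h
  · exact lF_good (T := T) (x := Lt.a) (by decide) [Lt.c, Lt.bi, Lt.a, Lt.bi, Lt.ci, Lt.bi, Lt.a, Lt.a, Lt.b, Lt.a, Lt.a] (hole_at (rf_2 hinv hr) 0 rfl) h
  · exact lF_good (T := T) (x := Lt.a) (by decide) [Lt.a, Lt.a, Lt.c, Lt.bi, Lt.a, Lt.bi, Lt.ci, Lt.bi, Lt.a, Lt.a, Lt.b] (hole_at (rf_2 hinv hr) 10 rfl) h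
theorem dp_a_27_s (hinv : ∀ x, g (inv x) = (g x)⁻¹) (hr : ∀ r ∈ rels, (r.map g).prod = 1) (hH : ∀ r ∈ subs, (r.map g).prod ∈ H)
    (j u : ℕ) (hu : u < M) (h : dp_a_27 j u = true) : Good (fa g) T MG M (cP g H) Lt.a u := by
  unfold dp_a_27 at h
  rcases brec_true h with h | h
  · exact lS_good (T := T) (x := Lt.a) (by decide) hu [Lt.ci, Lt.ai, Lt.ai, Lt.b, Lt.ai, Lt.b, Lt.c, Lt.ai, Lt.c, Lt.a, Lt.a, Lt.a, Lt.a, Lt.ci] (hole_at (rf_8 hinv hr) 2 rfl) h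
  · exact dp_a_26_s hinv hr hH j u hu h
theorem dp_a_28_s (hinv : ∀ x, g (inv x) = (g x)⁻¹) (hr : ∀ r ∈ rels, (r.map g).prod = 1) (hH : ∀ r ∈ subs, (r.map g).prod ∈ H)
    (j u : ℕ) (hu : u < M) (h : dp_a_28 j u = true) : Good (fa g) T MG M (cP g H) Lt.a u := by
  unfold dp_a_28 at h
  rcases brec_true h with h | h
  · exact dp_a_25_s hinv hr hH j u hu h
  · exact dp_a_27_s hinv hr hH j u hu h
theorem dp_a_29_s (hinv : ∀ x, g (inv x) = (g x)⁻¹) (hr : ∀ r ∈ rels, (r.map g).prod = 1) (hH : ∀ r ∈ subs, (r.map g).prod ∈ H)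
    (j u : ℕ) (hu : u < M) (h : dp_a_29 j u = true) : Good (fa g) T MG M (cP g H) Lt.a u := by
  unfold dp_a_29 at h
  rcases brec_true h with h | h
  · exact dp_a_23_s hinv hr hH j u hu h
  · exact dp_a_28_s hinv hr hH j u hu h
theorem dp_a_30_s (hinv : ∀ x, g (inv x) = (g x)⁻¹) (hr : ∀ r ∈ rels, (r.map g).prod = 1) (hH : ∀ r ∈ subs, (r.map g).prod ∈ H)
    (j u : ℕ) (hu : u < M) (h : dp_a_30 j u = true) : Good (fa g) T MG M (cP g H) Lt.a u := by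
  unfold dp_a_30 at h
  rcases brec_true h with h | h
  · exact dp_a_19_s hinv hr hH j u hu h
  · exact dp_a_29_s hinv hr hH j u hu h
theorem dp_a_31_s (hinv : ∀ x, g (inv x) = (g x)⁻¹) (hr : ∀ r ∈ rels, (r.map g).prod = 1) (hH : ∀ r ∈ subs, (r.map g).prod ∈ H)
    (j u : ℕ) (hu : u < M) (h : dp_a_31 j u = true) : Good (fa g) T MG M (cP g H) Lt.a u := by
  unfold dp_a_31 at h
  rcases brec_true h with h | h
  · exact dp_a_11_s hinv hr hH j u hu h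
  · exact dp_a_30_s hinv hr hH j u hu h
theorem dp_a_32_s (hinv : ∀ x, g (inv x) = (g x)⁻¹) (hr : ∀ r ∈ rels, (r.map g).prod = 1) (hH : ∀ r ∈ subs, (r.map g).prod ∈ H)
    (j u : ℕ) (hu : u < M) (h : dp_a_32 j u = true) : Good (fa g) T MG M (cP g H) Lt.a u := by
  unfold dp_a_32 at h
  rcases brec_true h with h | h
  · exact dp_a_4_s hinv hr hH j u hu h
  · exact dp_a_31_s hinv hr hH j u hu h
theorem dp_a_33_s (hinv : ∀ x, g (inv x) = (g x)⁻¹) (hr : ∀ r ∈ rels, (r.map g).prod = 1) (hH : ∀ r ∈ subs, (r.map g).prod ∈ H)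
    (j u : ℕ) (hu : u < M) (h : dp_a_33 j u = true) : Good (fa g) T MG M (cP g H) Lt.a u := by
  unfold dp_a_33 at h
  rcases brec_true h with h | h
  · rcases brec_true h with h | h
    · exact lF1_good (T := T) (x := Lt.a) (by decide) .ai (hole_at (rf_11 hinv hr) 1 rfl) h
    · exact lS_good (T := T) (x := Lt.a) (by decide) hu [Lt.ai] (hole_at (rf_11 hinv hr) 1 rfl) h
  · exact dp_a_32_s hinv hr hH j u hu h
theorem snd_a (hinv : ∀ x, g (inv x) = (g x)⁻¹) (hr : ∀ r ∈ rels, (r.map g).prod = 1) (hH : ∀ r ∈ subs, (r.map g).prod ∈ H)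
    (j u : ℕ) (hu : u < M) (h : disp_a j u = true) : Good (fa g) T MG M (cP g H) Lt.a u := by
  unfold disp_a at h
  rcases brec_true h with h | h
  · rcases brec_true h with h | h
    · exact lPar_good (T := T) (x := Lt.a) (x' := Lt.ai) (by decide) rfl (inv_rel hinv _ _ rfl) h
    · exact lDef_good (T := T) (x := Lt.a) (by decide) rfl h
  · exact dp_a_33_s hinv hr hH j u hu h
theorem snc_a (hinv : ∀ x, g (inv x) = (g x)⁻¹) (hr : ∀ r ∈ rels, (r.map g).prod = 1) (hH : ∀ r ∈ subs, (r.map g).prod ∈ H)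
    (j u : ℕ) (hu : u < M) (h : chk_a j u = true) : (T Lt.a u < A ∧ Good (fa g) T MG M (cP g H) Lt.a u) ∨ (A ≤ T Lt.a u ∧ MG u < A) := by
  unfold chk_a at h
  cases hb : Nat.ble A (T_a u) with
  | true => rw [hb] at h; exact Or.inr ⟨le_of_ble hb, le_of_ble h⟩
  | false => rw [hb] at h; exact Or.inl ⟨lt_of_ble_false hb, snd_a hinv hr hH j u hu h⟩
theorem dp_ai_0_s (hinv : ∀ x, g (inv x) = (g x)⁻¹) (hr : ∀ r ∈ rels, (r.map g).prod = 1) (hH : ∀ r ∈ subs, (r.map g).prod ∈ H)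
    (j u : ℕ) (hu : u < M) (h : dp_ai_0 j u = true) : Good (fa g) T MG M (cP g H) Lt.ai u := by
  unfold dp_ai_0 at h
  rcases brec_true h with h | h
  · exact lS_good (T := T) (x := Lt.ai) (by decide) hu [Lt.b, Lt.ci, Lt.ai, Lt.ai, Lt.ai, Lt.bi, Lt.ai, Lt.ai, Lt.b, Lt.c, Lt.b] (hole_at (rb_2 hinv hr) 10 rfl) h
  · exact lS_good (T := T) (x := Lt.ai) (by decide) hu [Lt.ai, Lt.ai, Lt.bi, Lt.ai, Lt.ai, Lt.b, Lt.c, Lt.b, Lt.ai, Lt.b, Lt.ci] (hole_at (rb_2 hinv hr) 1 rfl) h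
theorem dp_ai_1_s (hinv : ∀ x, g (inv x) = (g x)⁻¹) (hr : ∀ r ∈ rels, (r.map g).prod = 1) (hH : ∀ r ∈ subs, (r.map g).prod ∈ H)
    (j u : ℕ) (hu : u < M) (h : dp_ai_1 j u = true) : Good (fa g) T MG M (cP g H) Lt.ai u := by
  unfold dp_ai_1 at h
  rcases brec_true h with h | h
  · exact lS_good (T := T) (x := Lt.ai) (by decide) hu [Lt.ai, Lt.b, Lt.ai, Lt.b, Lt.a, Lt.bi, Lt.a, Lt.bi, Lt.a, Lt.a, Lt.b, Lt.a, Lt.bi] (hole_at (rf_4 hinv hr) 6 rfl) h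
  · exact lS_good (T := T) (x := Lt.ai) (by decide) hu [Lt.c, Lt.ai, Lt.bi, Lt.ai, Lt.ai, Lt.b, Lt.ci, Lt.a, Lt.ci, Lt.ai, Lt.ai, Lt.ai, Lt.ai, Lt.c] (hole_at (rb_6 hinv hr) 6 rfl) h
theorem dp_ai_2_s (hinv : ∀ x, g (inv x) = (g x)⁻¹) (hr : ∀ r ∈ rels, (r.map g).prod = 1) (hH : ∀ r ∈ subs, (r.map g).prod ∈ H)
    (j u : ℕ) (hu : u < M) (h : dp_ai_2 j u = true) : Good (fa g) T MG M (cP g H) Lt.ai u := by
  unfold dp_ai_2 at h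
  rcases brec_true h with h | h
  · exact dp_ai_0_s hinv hr hH j u hu h
  · exact dp_ai_1_s hinv hr hH j u hu h
theorem dp_ai_3_s (hinv : ∀ x, g (inv x) = (g x)⁻¹) (hr : ∀ r ∈ rels, (r.map g).prod = 1) (hH : ∀ r ∈ subs, (r.map g).prod ∈ H)
    (j u : ℕ) (hu : u < M) (h : dp_ai_3 j u = true) : Good (fa g) T MG M (cP g H) Lt.ai u := by
  unfold dp_ai_3 at h
  rcases brec_true h with h | h
  · exact lS_good (T := T) (x := Lt.ai) (by decide) hu [Lt.c, Lt.bi, Lt.ci, Lt.a, Lt.ci, Lt.ai, Lt.ai, Lt.bi, Lt.a, Lt.b, Lt.ai, Lt.bi, Lt.ai, Lt.c] (hole_at (rb_5 hinv hr) 10 rfl) h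
  · exact lS_good (T := T) (x := Lt.ai) (by decide) hu [Lt.c, Lt.bi, Lt.a, Lt.a, Lt.b, Lt.a, Lt.ci, Lt.a, Lt.ci, Lt.a, Lt.a, Lt.a, Lt.a, Lt.c] (hole_at (rf_6 hinv hr) 2 rfl) h
theorem dp_ai_4_s (hinv : ∀ x, g (inv x) = (g x)⁻¹) (hr : ∀ r ∈ rels, (r.map g).prod = 1) (hH : ∀ r ∈ subs, (r.map g).prod ∈ H)
    (j u : ℕ) (hu : u < M) (h : dp_ai_4 j u = true) : Good (fa g) T MG M (cP g H) Lt.ai u := by
  unfold dp_ai_4 at h
  rcases brec_true h with h | h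
  · exact lS_good (T := T) (x := Lt.ai) (by decide) hu [Lt.b, Lt.c, Lt.b, Lt.ai, Lt.b, Lt.ci, Lt.ai, Lt.ai, Lt.ai, Lt.bi, Lt.ai] (hole_at (rb_2 hinv hr) 6 rfl) h
  · exact lF_good (T := T) (x := Lt.ai) (by decide) [Lt.b, Lt.c, Lt.b, Lt.ai, Lt.b, Lt.ci, Lt.ai, Lt.ai, Lt.ai, Lt.bi, Lt.ai] (hole_at (rb_2 hinv hr) 6 rfl) h
theorem dp_ai_5_s (hinv : ∀ x, g (inv x) = (g x)⁻¹) (hr : ∀ r ∈ rels, (r.map g).prod = 1) (hH : ∀ r ∈ subs, (r.map g).prod ∈ H)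
    (j u : ℕ) (hu : u < M) (h : dp_ai_5 j u = true) : Good (fa g) T MG M (cP g H) Lt.ai u := by
  unfold dp_ai_5 at h
  rcases brec_true h with h | h
  · exact dp_ai_3_s hinv hr hH j u hu h
  · exact dp_ai_4_s hinv hr hH j u hu h
theorem dp_ai_6_s (hinv : ∀ x, g (inv x) = (g x)⁻¹) (hr : ∀ r ∈ rels, (r.map g).prod = 1) (hH : ∀ r ∈ subs, (r.map g).prod ∈ H)
    (j u : ℕ) (hu : u < M) (h : dp_ai_6 j u = true) : Good (fa g) T MG M (cP g H) Lt.ai u := by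
  unfold dp_ai_6 at h
  rcases brec_true h with h | h
  · exact lS_good (T := T) (x := Lt.ai) (by decide) hu [Lt.ci, Lt.b, Lt.ai, Lt.b, Lt.c, Lt.bi, Lt.a, Lt.bi, Lt.c, Lt.a, Lt.a, Lt.bi, Lt.ai] (hole_at (rb_3 hinv hr) 5 rfl) h
  · exact lS_good (T := T) (x := Lt.ai) (by decide) hu [Lt.bi, Lt.a, Lt.bi, Lt.a, Lt.a, Lt.b, Lt.ai, Lt.bi, Lt.ai, Lt.ai, Lt.b, Lt.ai, Lt.b] (hole_at (rb_4 hinv hr) 4 rfl) h
theorem dp_ai_7_s (hinv : ∀ x, g (inv x) = (g x)⁻¹) (hr : ∀ r ∈ rels, (r.map g).prod = 1) (hH : ∀ r ∈ subs, (r.map g).prod ∈ H)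
    (j u : ℕ) (hu : u < M) (h : dp_ai_7 j u = true) : Good (fa g) T MG M (cP g H) Lt.ai u := by
  unfold dp_ai_7 at h
  rcases brec_true h with h | h
  · exact lS_good (T := T) (x := Lt.ai) (by decide) hu [Lt.c, Lt.ai, Lt.ai, Lt.ai, Lt.ai, Lt.ci, Lt.a, Lt.ci, Lt.bi, Lt.a, Lt.bi, Lt.a, Lt.a, Lt.c] (hole_at (rb_8 hinv hr) 14 rfl) h
  · exact lS_good (T := T) (x := Lt.ai) (by decide) hu [Lt.b, Lt.c, Lt.bi, Lt.a, Lt.bi, Lt.c, Lt.a, Lt.a, Lt.bi, Lt.ai, Lt.ai, Lt.ci, Lt.b] (hole_at (rb_3 hinv hr) 8 rfl) h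
theorem dp_ai_8_s (hinv : ∀ x, g (inv x) = (g x)⁻¹) (hr : ∀ r ∈ rels, (r.map g).prod = 1) (hH : ∀ r ∈ subs, (r.map g).prod ∈ H)
    (j u : ℕ) (hu : u < M) (h : dp_ai_8 j u = true) : Good (fa g) T MG M (cP g H) Lt.ai u := by
  unfold dp_ai_8 at h
  rcases brec_true h with h | h
  · exact lS_good (T := T) (x := Lt.ai) (by decide) hu [Lt.bi, Lt.ai, Lt.ai, Lt.b, Lt.c, Lt.b, Lt.ai, Lt.b, Lt.ci, Lt.ai, Lt.ai] (hole_at (rb_2 hinv hr) 3 rfl) h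
  · exact dp_ai_7_s hinv hr hH j u hu h
theorem dp_ai_9_s (hinv : ∀ x, g (inv x) = (g x)⁻¹) (hr : ∀ r ∈ rels, (r.map g).prod = 1) (hH : ∀ r ∈ subs, (r.map g).prod ∈ H)
    (j u : ℕ) (hu : u < M) (h : dp_ai_9 j u = true) : Good (fa g) T MG M (cP g H) Lt.ai u := by
  unfold dp_ai_9 at h
  rcases brec_true h with h | h
  · exact dp_ai_6_s hinv hr hH j u hu h
  · exact dp_ai_8_s hinv hr hH j u hu h
theorem dp_ai_10_s (hinv : ∀ x, g (inv x) = (g x)⁻¹) (hr : ∀ r ∈ rels, (r.map g).prod = 1) (hH : ∀ r ∈ subs, (r.map g).prod ∈ H)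
    (j u : ℕ) (hu : u < M) (h : dp_ai_10 j u = true) : Good (fa g) T MG M (cP g H) Lt.ai u := by
  unfold dp_ai_10 at h
  rcases brec_true h with h | h
  · exact dp_ai_5_s hinv hr hH j u hu h
  · exact dp_ai_9_s hinv hr hH j u hu h
theorem dp_ai_11_s (hinv : ∀ x, g (inv x) = (g x)⁻¹) (hr : ∀ r ∈ rels, (r.map g).prod = 1) (hH : ∀ r ∈ subs, (r.map g).prod ∈ H)
    (j u : ℕ) (hu : u < M) (h : dp_ai_11 j u = true) : Good (fa g) T MG M (cP g H) Lt.ai u := by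
  unfold dp_ai_11 at h
  rcases brec_true h with h | h
  · exact lS_good (T := T) (x := Lt.ai) (by decide) hu [Lt.c, Lt.b, Lt.ci, Lt.a, Lt.ci, Lt.a, Lt.b, Lt.a, Lt.bi, Lt.ai, Lt.b, Lt.a, Lt.a, Lt.c] (hole_at (rf_5 hinv hr) 2 rfl) h
  · exact lF_good (T := T) (x := Lt.ai) (by decide) [Lt.ai, Lt.b, Lt.c, Lt.b, Lt.ai, Lt.b, Lt.ci, Lt.ai, Lt.ai, Lt.ai, Lt.bi] (hole_at (rb_2 hinv hr) 5 rfl) h
theorem dp_ai_12_s (hinv : ∀ x, g (inv x) = (g x)⁻¹) (hr : ∀ r ∈ rels, (r.map g).prod = 1) (hH : ∀ r ∈ subs, (r.map g).prod ∈ H)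
    (j u : ℕ) (hu : u < M) (h : dp_ai_12 j u = true) : Good (fa g) T MG M (cP g H) Lt.ai u := by
  unfold dp_ai_12 at h
  rcases brec_true h with h | h
  · exact lS_good (T := T) (x := Lt.ai) (by decide) hu [Lt.ai, Lt.bi, Lt.ai, Lt.ai, Lt.b, Lt.c, Lt.b, Lt.ai, Lt.b, Lt.ci, Lt.ai] (hole_at (rb_2 hinv hr) 2 rfl) h
  · exact lS_good (T := T) (x := Lt.ai) (by decide) hu [Lt.ai, Lt.bi, Lt.a, Lt.a, Lt.b, Lt.a, Lt.a, Lt.bi, Lt.a, Lt.bi, Lt.a, Lt.a, Lt.b, Lt.ai, Lt.b] (hole_at (rf_10 hinv hr) 14 rfl) h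
theorem dp_ai_13_s (hinv : ∀ x, g (inv x) = (g x)⁻¹) (hr : ∀ r ∈ rels, (r.map g).prod = 1) (hH : ∀ r ∈ subs, (r.map g).prod ∈ H)
    (j u : ℕ) (hu : u < M) (h : dp_ai_13 j u = true) : Good (fa g) T MG M (cP g H) Lt.ai u := by
  unfold dp_ai_13 at h
  rcases brec_true h with h | h
  · exact lS_good (T := T) (x := Lt.ai) (by decide) hu [Lt.c, Lt.ai, Lt.ai, Lt.ai, Lt.ai, Lt.ci, Lt.a, Lt.ci, Lt.bi, Lt.ai, Lt.ai, Lt.b, Lt.ai, Lt.c] (hole_at (rb_7 hinv hr) 14 rfl) h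
  · exact lS_good (T := T) (x := Lt.ai) (by decide) hu [Lt.c, Lt.a, Lt.a, Lt.a, Lt.a, Lt.ci, Lt.a, Lt.ci, Lt.a, Lt.bi, Lt.a, Lt.a, Lt.b, Lt.c] (hole_at (rf_7 hinv hr) 10 rfl) h
theorem dp_ai_14_s (hinv : ∀ x, g (inv x) = (g x)⁻¹) (hr : ∀ r ∈ rels, (r.map g).prod = 1) (hH : ∀ r ∈ subs, (r.map g).prod ∈ H)
    (j u : ℕ) (hu : u < M) (h : dp_ai_14 j u = true) : Good (fa g) T MG M (cP g H) Lt.ai u := by
  unfold dp_ai_14 at h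
  rcases brec_true h with h | h
  · exact lS_good (T := T) (x := Lt.ai) (by decide) hu [Lt.b, Lt.a, Lt.b, Lt.a, Lt.bi, Lt.a, Lt.bi, Lt.a, Lt.b, Lt.ai, Lt.b, Lt.ai, Lt.b, Lt.ai, Lt.bi] (hole_at (rf_9 hinv hr) 15 rfl) h
  · exact dp_ai_13_s hinv hr hH j u hu h
theorem dp_ai_15_s (hinv : ∀ x, g (inv x) = (g x)⁻¹) (hr : ∀ r ∈ rels, (r.map g).prod = 1) (hH : ∀ r ∈ subs, (r.map g).prod ∈ H)
    (j u : ℕ) (hu : u < M) (h : dp_ai_15 j u = true) : Good (fa g) T MG M (cP g H) Lt.ai u := by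
  unfold dp_ai_15 at h
  rcases brec_true h with h | h
  · exact dp_ai_12_s hinv hr hH j u hu h
  · exact dp_ai_14_s hinv hr hH j u hu h
theorem dp_ai_16_s (hinv : ∀ x, g (inv x) = (g x)⁻¹) (hr : ∀ r ∈ rels, (r.map g).prod = 1) (hH : ∀ r ∈ subs, (r.map g).prod ∈ H)
    (j u : ℕ) (hu : u < M) (h : dp_ai_16 j u = true) : Good (fa g) T MG M (cP g H) Lt.ai u := by
  unfold dp_ai_16 at h
  rcases brec_true h with h | h
  · exact dp_ai_11_s hinv hr hH j u hu h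
  · exact dp_ai_15_s hinv hr hH j u hu h
theorem dp_ai_17_s (hinv : ∀ x, g (inv x) = (g x)⁻¹) (hr : ∀ r ∈ rels, (r.map g).prod = 1) (hH : ∀ r ∈ subs, (r.map g).prod ∈ H)
    (j u : ℕ) (hu : u < M) (h : dp_ai_17 j u = true) : Good (fa g) T MG M (cP g H) Lt.ai u := by
  unfold dp_ai_17 at h
  rcases brec_true h with h | h
  · exact lS_good (T := T) (x := Lt.ai) (by decide) hu [Lt.ai, Lt.bi, Lt.a, Lt.b, Lt.ai, Lt.bi, Lt.ai, Lt.c, Lt.ai, Lt.c, Lt.bi, Lt.ci, Lt.a, Lt.ci] (hole_at (rb_5 hinv hr) 1 rfl) h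
  · exact lS_good (T := T) (x := Lt.ai) (by decide) hu [Lt.bi, Lt.ai, Lt.ai, Lt.b, Lt.ai, Lt.b, Lt.ai, Lt.bi, Lt.a, Lt.bi, Lt.a, Lt.a, Lt.b] (hole_at (rb_4 hinv hr) 11 rfl) h
theorem dp_ai_18_s (hinv : ∀ x, g (inv x) = (g x)⁻¹) (hr : ∀ r ∈ rels, (r.map g).prod = 1) (hH : ∀ r ∈ subs, (r.map g).prod ∈ H)
    (j u : ℕ) (hu : u < M) (h : dp_ai_18 j u = true) : Good (fa g) T MG M (cP g H) Lt.ai u := by
  unfold dp_ai_18 at h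
  rcases brec_true h with h | h
  · exact lF_good (T := T) (x := Lt.ai) (by decide) [Lt.ai, Lt.b, Lt.ai, Lt.b, Lt.a, Lt.bi, Lt.a, Lt.bi, Lt.a, Lt.a, Lt.b, Lt.a, Lt.bi] (hole_at (rf_4 hinv hr) 6 rfl) h
  · exact lS_good (T := T) (x := Lt.ai) (by decide) hu [Lt.c, Lt.a, Lt.a, Lt.a, Lt.a, Lt.ci, Lt.a, Lt.ci, Lt.ai, Lt.ai, Lt.b, Lt.ai, Lt.b, Lt.c] (hole_at (rf_8 hinv hr) 10 rfl) h
theorem dp_ai_19_s (hinv : ∀ x, g (inv x) = (g x)⁻¹) (hr : ∀ r ∈ rels, (r.map g).prod = 1) (hH : ∀ r ∈ subs, (r.map g).prod ∈ H)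
    (j u : ℕ) (hu : u < M) (h : dp_ai_19 j u = true) : Good (fa g) T MG M (cP g H) Lt.ai u := by
  unfold dp_ai_19 at h
  rcases brec_true h with h | h
  · exact lS_good (T := T) (x := Lt.ai) (by decide) hu [Lt.b, Lt.ai, Lt.bi, Lt.a, Lt.bi, Lt.a, Lt.a, Lt.b, Lt.ai, Lt.bi, Lt.ai, Lt.ai, Lt.b] (hole_at (rb_4 hinv hr) 2 rfl) h
  · exact dp_ai_18_s hinv hr hH j u hu h
theorem dp_ai_20_s (hinv : ∀ x, g (inv x) = (g x)⁻¹) (hr : ∀ r ∈ rels, (r.map g).prod = 1) (hH : ∀ r ∈ subs, (r.map g).prod ∈ H)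
    (j u : ℕ) (hu : u < M) (h : dp_ai_20 j u = true) : Good (fa g) T MG M (cP g H) Lt.ai u := by
  unfold dp_ai_20 at h
  rcases brec_true h with h | h
  · exact dp_ai_17_s hinv hr hH j u hu h
  · exact dp_ai_19_s hinv hr hH j u hu h
theorem dp_ai_21_s (hinv : ∀ x, g (inv x) = (g x)⁻¹) (hr : ∀ r ∈ rels, (r.map g).prod = 1) (hH : ∀ r ∈ subs, (r.map g).prod ∈ H)
    (j u : ℕ) (hu : u < M) (h : dp_ai_21 j u = true) : Good (fa g) T MG M (cP g H) Lt.ai u := by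
  unfold dp_ai_21 at h
  rcases brec_true h with h | h
  · exact lF_good (T := T) (x := Lt.ai) (by decide) [Lt.b, Lt.ci, Lt.ai, Lt.ai, Lt.ai, Lt.bi, Lt.ai, Lt.ai, Lt.b, Lt.c, Lt.b] (hole_at (rb_2 hinv hr) 10 rfl) h
  · exact lS_good (T := T) (x := Lt.ai) (by decide) hu [Lt.ai, Lt.b, Lt.c, Lt.b, Lt.ai, Lt.b, Lt.ci, Lt.ai, Lt.ai, Lt.ai, Lt.bi] (hole_at (rb_2 hinv hr) 5 rfl) h
theorem dp_ai_22_s (hinv : ∀ x, g (inv x) = (g x)⁻¹) (hr : ∀ r ∈ rels, (r.map g).prod = 1) (hH : ∀ r ∈ subs, (r.map g).prod ∈ H)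
    (j u : ℕ) (hu : u < M) (h : dp_ai_22 j u = true) : Good (fa g) T MG M (cP g H) Lt.ai u := by
  unfold dp_ai_22 at h
  rcases brec_true h with h | h
  · exact lS_good (T := T) (x := Lt.ai) (by decide) hu [Lt.ai, Lt.ci, Lt.b, Lt.ai, Lt.b, Lt.ci, Lt.bi, Lt.a, Lt.bi, Lt.c, Lt.a, Lt.a, Lt.b] (hole_at (rf_3 hinv hr) 13 rfl) h
  · exact dp_ai_21_s hinv hr hH j u hu h
theorem dp_ai_23_s (hinv : ∀ x, g (inv x) = (g x)⁻¹) (hr : ∀ r ∈ rels, (r.map g).prod = 1) (hH : ∀ r ∈ subs, (r.map g).prod ∈ H)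
    (j u : ℕ) (hu : u < M) (h : dp_ai_23 j u = true) : Good (fa g) T MG M (cP g H) Lt.ai u := by
  unfold dp_ai_23 at h
  rcases brec_true h with h | h
  · exact lF_good (T := T) (x := Lt.ai) (by decide) [Lt.bi, Lt.ai, Lt.ai, Lt.b, Lt.c, Lt.b, Lt.ai, Lt.b, Lt.ci, Lt.ai, Lt.ai] (hole_at (rb_2 hinv hr) 3 rfl) h
  · exact lF_good (T := T) (x := Lt.ai) (by decide) [Lt.ai, Lt.b, Lt.ai, Lt.b, Lt.ai, Lt.bi, Lt.a, Lt.bi, Lt.a, Lt.a, Lt.b, Lt.ai, Lt.bi] (hole_at (rb_4 hinv hr) 13 rfl) h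
theorem dp_ai_24_s (hinv : ∀ x, g (inv x) = (g x)⁻¹) (hr : ∀ r ∈ rels, (r.map g).prod = 1) (hH : ∀ r ∈ subs, (r.map g).prod ∈ H)
    (j u : ℕ) (hu : u < M) (h : dp_ai_24 j u = true) : Good (fa g) T MG M (cP g H) Lt.ai u := by
  unfold dp_ai_24 at h
  rcases brec_true h with h | h
  · exact lS_good (T := T) (x := Lt.ai) (by decide) hu [Lt.b, Lt.ai, Lt.b, Lt.ai, Lt.bi, Lt.a, Lt.bi, Lt.a, Lt.a, Lt.b, Lt.ai, Lt.bi, Lt.ai] (hole_at (rb_4 hinv hr) 0 rfl) h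
  · exact dp_ai_23_s hinv hr hH j u hu h
theorem dp_ai_25_s (hinv : ∀ x, g (inv x) = (g x)⁻¹) (hr : ∀ r ∈ rels, (r.map g).prod = 1) (hH : ∀ r ∈ subs, (r.map g).prod ∈ H)
    (j u : ℕ) (hu : u < M) (h : dp_ai_25 j u = true) : Good (fa g) T MG M (cP g H) Lt.ai u := by
  unfold dp_ai_25 at h
  rcases brec_true h with h | h
  · exact dp_ai_22_s hinv hr hH j u hu h
  · exact dp_ai_24_s hinv hr hH j u hu h
theorem dp_ai_26_s (hinv : ∀ x, g (inv x) = (g x)⁻¹) (hr : ∀ r ∈ rels, (r.map g).prod = 1) (hH : ∀ r ∈ subs, (r.map g).prod ∈ H)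
    (j u : ℕ) (hu : u < M) (h : dp_ai_26 j u = true) : Good (fa g) T MG M (cP g H) Lt.ai u := by
  unfold dp_ai_26 at h
  rcases brec_true h with h | h
  · exact dp_ai_20_s hinv hr hH j u hu h
  · exact dp_ai_25_s hinv hr hH j u hu h
theorem dp_ai_27_s (hinv : ∀ x, g (inv x) = (g x)⁻¹) (hr : ∀ r ∈ rels, (r.map g).prod = 1) (hH : ∀ r ∈ subs, (r.map g).prod ∈ H)
    (j u : ℕ) (hu : u < M) (h : dp_ai_27 j u = true) : Good (fa g) T MG M (cP g H) Lt.ai u := by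
  unfold dp_ai_27 at h
  rcases brec_true h with h | h
  · exact dp_ai_16_s hinv hr hH j u hu h
  · exact dp_ai_26_s hinv hr hH j u hu h
theorem dp_ai_28_s (hinv : ∀ x, g (inv x) = (g x)⁻¹) (hr : ∀ r ∈ rels, (r.map g).prod = 1) (hH : ∀ r ∈ subs, (r.map g).prod ∈ H)
    (j u : ℕ) (hu : u < M) (h : dp_ai_28 j u = true) : Good (fa g) T MG M (cP g H) Lt.ai u := by
  unfold dp_ai_28 at h
  rcases brec_true h with h | h
  · exact dp_ai_10_s hinv hr hH j u hu h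
  · exact dp_ai_27_s hinv hr hH j u hu h
theorem dp_ai_29_s (hinv : ∀ x, g (inv x) = (g x)⁻¹) (hr : ∀ r ∈ rels, (r.map g).prod = 1) (hH : ∀ r ∈ subs, (r.map g).prod ∈ H)
    (j u : ℕ) (hu : u < M) (h : dp_ai_29 j u = true) : Good (fa g) T MG M (cP g H) Lt.ai u := by
  unfold dp_ai_29 at h
  rcases brec_true h with h | h
  · rcases brec_true h with h | h
    · exact lS_good (T := T) (x := Lt.ai) (by decide) hu [Lt.a] (hole_at (rf_11 hinv hr) 0 rfl) h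
    · exact dp_ai_2_s hinv hr hH j u hu h
  · exact dp_ai_28_s hinv hr hH j u hu h
theorem dp_ai_30_s (hinv : ∀ x, g (inv x) = (g x)⁻¹) (hr : ∀ r ∈ rels, (r.map g).prod = 1) (hH : ∀ r ∈ subs, (r.map g).prod ∈ H)
    (j u : ℕ) (hu : u < M) (h : dp_ai_30 j u = true) : Good (fa g) T MG M (cP g H) Lt.ai u := by
  unfold dp_ai_30 at h
  rcases brec_true h with h | h
  · exact lF1_good (T := T) (x := Lt.ai) (by decide) .a (hole_at (rf_11 hinv hr) 0 rfl) h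
  · exact dp_ai_29_s hinv hr hH j u hu h
theorem snd_ai (hinv : ∀ x, g (inv x) = (g x)⁻¹) (hr : ∀ r ∈ rels, (r.map g).prod = 1) (hH : ∀ r ∈ subs, (r.map g).prod ∈ H)
    (j u : ℕ) (hu : u < M) (h : disp_ai j u = true) : Good (fa g) T MG M (cP g H) Lt.ai u := by
  unfold disp_ai at h
  rcases brec_true h with h | h
  · rcases brec_true h with h | h
    · exact lDef_good (T := T) (x := Lt.ai) (by decide) rfl h
    · exact lPar_good (T := T) (x := Lt.ai) (x' := Lt.a) (by decide) rfl (inv_rel hinv _ _ rfl) h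
  · exact dp_ai_30_s hinv hr hH j u hu h
theorem snc_ai (hinv : ∀ x, g (inv x) = (g x)⁻¹) (hr : ∀ r ∈ rels, (r.map g).prod = 1) (hH : ∀ r ∈ subs, (r.map g).prod ∈ H)
    (j u : ℕ) (hu : u < M) (h : chk_ai j u = true) : (T Lt.ai u < A ∧ Good (fa g) T MG M (cP g H) Lt.ai u) ∨ (A ≤ T Lt.ai u ∧ MG u < A) := by
  unfold chk_ai at h
  cases hb : Nat.ble A (T_ai u) with
  | true => rw [hb] at h; exact Or.inr ⟨le_of_ble hb, le_of_ble h⟩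
  | false => rw [hb] at h; exact Or.inl ⟨lt_of_ble_false hb, snd_ai hinv hr hH j u hu h⟩
theorem dp_b_0_s (hinv : ∀ x, g (inv x) = (g x)⁻¹) (hr : ∀ r ∈ rels, (r.map g).prod = 1) (hH : ∀ r ∈ subs, (r.map g).prod ∈ H)
    (j u : ℕ) (hu : u < M) (h : dp_b_0 j u = true) : Good (fa g) T MG M (cP g H) Lt.b u := by
  unfold dp_b_0 at h
  rcases brec_true h with h | h
  · exact lS_good (T := T) (x := Lt.b) (by decide) hu [Lt.bi] (hole_at (rf_13 hinv hr) 1 rfl) h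
  · exact lS_good (T := T) (x := Lt.b) (by decide) hu [Lt.ci, Lt.ai, Lt.ai, Lt.ai, Lt.bi, Lt.ai, Lt.ai, Lt.b, Lt.c, Lt.b, Lt.ai] (hole_at (rb_2 hinv hr) 11 rfl) h
theorem dp_b_1_s (hinv : ∀ x, g (inv x) = (g x)⁻¹) (hr : ∀ r ∈ rels, (r.map g).prod = 1) (hH : ∀ r ∈ subs, (r.map g).prod ∈ H)
    (j u : ℕ) (hu : u < M) (h : dp_b_1 j u = true) : Good (fa g) T MG M (cP g H) Lt.b u := by
  unfold dp_b_1 at h
  rcases brec_true h with h | h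
  · exact lS_good (T := T) (x := Lt.b) (by decide) hu [Lt.a, Lt.a, Lt.a, Lt.c, Lt.bi, Lt.a, Lt.bi, Lt.ci, Lt.bi, Lt.a, Lt.a] (hole_at (rf_2 hinv hr) 9 rfl) h
  · exact lF_good (T := T) (x := Lt.b) (by decide) [Lt.ai, Lt.ai, Lt.ci, Lt.b, Lt.ai, Lt.b, Lt.ci, Lt.bi, Lt.a, Lt.bi, Lt.c, Lt.a, Lt.a] (hole_at (rf_3 hinv hr) 12 rfl) h
theorem dp_b_2_s (hinv : ∀ x, g (inv x) = (g x)⁻¹) (hr : ∀ r ∈ rels, (r.map g).prod = 1) (hH : ∀ r ∈ subs, (r.map g).prod ∈ H)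
    (j u : ℕ) (hu : u < M) (h : dp_b_2 j u = true) : Good (fa g) T MG M (cP g H) Lt.b u := by
  unfold dp_b_2 at h
  rcases brec_true h with h | h
  · exact lS_good (T := T) (x := Lt.b) (by decide) hu [Lt.ai, Lt.ai, Lt.ci, Lt.b, Lt.ai, Lt.b, Lt.ci, Lt.bi, Lt.a, Lt.bi, Lt.c, Lt.a, Lt.a] (hole_at (rf_3 hinv hr) 12 rfl) h
  · exact dp_b_1_s hinv hr hH j u hu h
theorem dp_b_3_s (hinv : ∀ x, g (inv x) = (g x)⁻¹) (hr : ∀ r ∈ rels, (r.map g).prod = 1) (hH : ∀ r ∈ subs, (r.map g).prod ∈ H)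
    (j u : ℕ) (hu : u < M) (h : dp_b_3 j u = true) : Good (fa g) T MG M (cP g H) Lt.b u := by
  unfold dp_b_3 at h
  rcases brec_true h with h | h
  · exact lS_good (T := T) (x := Lt.b) (by decide) hu [Lt.ai, Lt.b, Lt.ci, Lt.ai, Lt.ai, Lt.ai, Lt.bi, Lt.ai, Lt.ai, Lt.b, Lt.c] (hole_at (rb_2 hinv hr) 9 rfl) h
  · exact dp_b_2_s hinv hr hH j u hu h
theorem dp_b_4_s (hinv : ∀ x, g (inv x) = (g x)⁻¹) (hr : ∀ r ∈ rels, (r.map g).prod = 1) (hH : ∀ r ∈ subs, (r.map g).prod ∈ H)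
    (j u : ℕ) (hu : u < M) (h : dp_b_4 j u = true) : Good (fa g) T MG M (cP g H) Lt.b u := by
  unfold dp_b_4 at h
  rcases brec_true h with h | h
  · exact lF_good (T := T) (x := Lt.b) (by decide) [Lt.ci, Lt.ai, Lt.ai, Lt.ai, Lt.bi, Lt.ai, Lt.ai, Lt.b, Lt.c, Lt.b, Lt.ai] (hole_at (rb_2 hinv hr) 11 rfl) h
  · exact lH_good (T := T) (x := Lt.b) (by decide) [] [] (by rw [show cP g H 0 = _ from cc_zero]; exact sub_rel hinv (hH _ (by decide))) h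
theorem dp_b_5_s (hinv : ∀ x, g (inv x) = (g x)⁻¹) (hr : ∀ r ∈ rels, (r.map g).prod = 1) (hH : ∀ r ∈ subs, (r.map g).prod ∈ H)
    (j u : ℕ) (hu : u < M) (h : dp_b_5 j u = true) : Good (fa g) T MG M (cP g H) Lt.b u := by
  unfold dp_b_5 at h
  rcases brec_true h with h | h
  · exact lF_good (T := T) (x := Lt.b) (by decide) [Lt.ci, Lt.a, Lt.ci, Lt.a, Lt.b, Lt.a, Lt.bi, Lt.ai, Lt.b, Lt.a, Lt.a, Lt.c, Lt.ai, Lt.c] (hole_at (rf_5 hinv hr) 4 rfl) h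
  · exact lF_good (T := T) (x := Lt.b) (by decide) [Lt.a, Lt.a, Lt.a, Lt.c, Lt.bi, Lt.a, Lt.bi, Lt.ci, Lt.bi, Lt.a, Lt.a] (hole_at (rf_2 hinv hr) 9 rfl) h
theorem dp_b_6_s (hinv : ∀ x, g (inv x) = (g x)⁻¹) (hr : ∀ r ∈ rels, (r.map g).prod = 1) (hH : ∀ r ∈ subs, (r.map g).prod ∈ H)
    (j u : ℕ) (hu : u < M) (h : dp_b_6 j u = true) : Good (fa g) T MG M (cP g H) Lt.b u := by
  unfold dp_b_6 at h
  rcases brec_true h with h | h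
  · exact lS_good (T := T) (x := Lt.b) (by decide) hu [Lt.ci, Lt.a, Lt.ci, Lt.a, Lt.b, Lt.a, Lt.bi, Lt.ai, Lt.b, Lt.a, Lt.a, Lt.c, Lt.ai, Lt.c] (hole_at (rf_5 hinv hr) 4 rfl) h
  · exact lS_good (T := T) (x := Lt.b) (by decide) hu [Lt.ai, Lt.b, Lt.a, Lt.bi, Lt.a, Lt.bi, Lt.a, Lt.a, Lt.b, Lt.a, Lt.bi, Lt.ai, Lt.ai] (hole_at (rf_4 hinv hr) 8 rfl) h
theorem dp_b_7_s (hinv : ∀ x, g (inv x) = (g x)⁻¹) (hr : ∀ r ∈ rels, (r.map g).prod = 1) (hH : ∀ r ∈ subs, (r.map g).prod ∈ H)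
    (j u : ℕ) (hu : u < M) (h : dp_b_7 j u = true) : Good (fa g) T MG M (cP g H) Lt.b u := by
  unfold dp_b_7 at h
  rcases brec_true h with h | h
  · exact dp_b_5_s hinv hr hH j u hu h
  · exact dp_b_6_s hinv hr hH j u hu h
theorem dp_b_8_s (hinv : ∀ x, g (inv x) = (g x)⁻¹) (hr : ∀ r ∈ rels, (r.map g).prod = 1) (hH : ∀ r ∈ subs, (r.map g).prod ∈ H)
    (j u : ℕ) (hu : u < M) (h : dp_b_8 j u = true) : Good (fa g) T MG M (cP g H) Lt.b u := by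
  unfold dp_b_8 at h
  rcases brec_true h with h | h
  · exact dp_b_4_s hinv hr hH j u hu h
  · exact dp_b_7_s hinv hr hH j u hu h
theorem dp_b_9_s (hinv : ∀ x, g (inv x) = (g x)⁻¹) (hr : ∀ r ∈ rels, (r.map g).prod = 1) (hH : ∀ r ∈ subs, (r.map g).prod ∈ H)
    (j u : ℕ) (hu : u < M) (h : dp_b_9 j u = true) : Good (fa g) T MG M (cP g H) Lt.b u := by
  unfold dp_b_9 at h
  rcases brec_true h with h | h
  · exact lF_good (T := T) (x := Lt.b) (by decide) [Lt.a, Lt.ci, Lt.a, Lt.ci, Lt.a, Lt.a, Lt.a, Lt.a, Lt.c, Lt.ai, Lt.c, Lt.bi, Lt.a, Lt.a] (hole_at (rf_6 hinv hr) 7 rfl) h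
  · exact lS_good (T := T) (x := Lt.b) (by decide) hu [Lt.a, Lt.a, Lt.c, Lt.ai, Lt.c, Lt.b, Lt.ci, Lt.a, Lt.ci, Lt.a, Lt.b, Lt.a, Lt.bi, Lt.ai] (hole_at (rf_5 hinv hr) 13 rfl) h
theorem dp_b_10_s (hinv : ∀ x, g (inv x) = (g x)⁻¹) (hr : ∀ r ∈ rels, (r.map g).prod = 1) (hH : ∀ r ∈ subs, (r.map g).prod ∈ H)
    (j u : ℕ) (hu : u < M) (h : dp_b_10 j u = true) : Good (fa g) T MG M (cP g H) Lt.b u := by
  unfold dp_b_10 at h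
  rcases brec_true h with h | h
  · exact lF_good (T := T) (x := Lt.b) (by decide) [Lt.ai, Lt.b, Lt.ai, Lt.bi, Lt.a, Lt.bi, Lt.a, Lt.a, Lt.b, Lt.ai, Lt.bi, Lt.ai, Lt.ai] (hole_at (rb_4 hinv hr) 1 rfl) h
  · exact dp_b_9_s hinv hr hH j u hu h
theorem dp_b_11_s (hinv : ∀ x, g (inv x) = (g x)⁻¹) (hr : ∀ r ∈ rels, (r.map g).prod = 1) (hH : ∀ r ∈ subs, (r.map g).prod ∈ H)
    (j u : ℕ) (hu : u < M) (h : dp_b_11 j u = true) : Good (fa g) T MG M (cP g H) Lt.b u := by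
  unfold dp_b_11 at h
  rcases brec_true h with h | h
  · exact lS_good (T := T) (x := Lt.b) (by decide) hu [Lt.a, Lt.bi, Lt.ai, Lt.ai, Lt.b, Lt.ai, Lt.b, Lt.a, Lt.bi, Lt.a, Lt.bi, Lt.a, Lt.a] (hole_at (rf_4 hinv hr) 3 rfl) h
  · exact lS_good (T := T) (x := Lt.b) (by decide) hu [Lt.a, Lt.bi, Lt.a, Lt.bi, Lt.a, Lt.a, Lt.b, Lt.a, Lt.bi, Lt.ai, Lt.ai, Lt.b, Lt.ai] (hole_at (rf_4 hinv hr) 10 rfl) h
theorem dp_b_12_s (hinv : ∀ x, g (inv x) = (g x)⁻¹) (hr : ∀ r ∈ rels, (r.map g).prod = 1) (hH : ∀ r ∈ subs, (r.map g).prod ∈ H)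
    (j u : ℕ) (hu : u < M) (h : dp_b_12 j u = true) : Good (fa g) T MG M (cP g H) Lt.b u := by
  unfold dp_b_12 at h
  rcases brec_true h with h | h
  · exact lS_good (T := T) (x := Lt.b) (by decide) hu [Lt.ai, Lt.b, Lt.ai, Lt.bi, Lt.a, Lt.bi, Lt.a, Lt.a, Lt.b, Lt.ai, Lt.bi, Lt.ai, Lt.ai] (hole_at (rb_4 hinv hr) 1 rfl) h
  · exact lS_good (T := T) (x := Lt.b) (by decide) hu [Lt.c, Lt.b, Lt.ai, Lt.b, Lt.ci, Lt.ai, Lt.ai, Lt.ai, Lt.bi, Lt.ai, Lt.ai] (hole_at (rb_2 hinv hr) 7 rfl) h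
theorem dp_b_13_s (hinv : ∀ x, g (inv x) = (g x)⁻¹) (hr : ∀ r ∈ rels, (r.map g).prod = 1) (hH : ∀ r ∈ subs, (r.map g).prod ∈ H)
    (j u : ℕ) (hu : u < M) (h : dp_b_13 j u = true) : Good (fa g) T MG M (cP g H) Lt.b u := by
  unfold dp_b_13 at h
  rcases brec_true h with h | h
  · exact dp_b_11_s hinv hr hH j u hu h
  · exact dp_b_12_s hinv hr hH j u hu h
theorem dp_b_14_s (hinv : ∀ x, g (inv x) = (g x)⁻¹) (hr : ∀ r ∈ rels, (r.map g).prod = 1) (hH : ∀ r ∈ subs, (r.map g).prod ∈ H)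
    (j u : ℕ) (hu : u < M) (h : dp_b_14 j u = true) : Good (fa g) T MG M (cP g H) Lt.b u := by
  unfold dp_b_14 at h
  rcases brec_true h with h | h
  · exact dp_b_10_s hinv hr hH j u hu h
  · exact dp_b_13_s hinv hr hH j u hu h
theorem dp_b_15_s (hinv : ∀ x, g (inv x) = (g x)⁻¹) (hr : ∀ r ∈ rels, (r.map g).prod = 1) (hH : ∀ r ∈ subs, (r.map g).prod ∈ H)
    (j u : ℕ) (hu : u < M) (h : dp_b_15 j u = true) : Good (fa g) T MG M (cP g H) Lt.b u := by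
  unfold dp_b_15 at h
  rcases brec_true h with h | h
  · exact dp_b_8_s hinv hr hH j u hu h
  · exact dp_b_14_s hinv hr hH j u hu h
theorem dp_b_16_s (hinv : ∀ x, g (inv x) = (g x)⁻¹) (hr : ∀ r ∈ rels, (r.map g).prod = 1) (hH : ∀ r ∈ subs, (r.map g).prod ∈ H)
    (j u : ℕ) (hu : u < M) (h : dp_b_16 j u = true) : Good (fa g) T MG M (cP g H) Lt.b u := by
  unfold dp_b_16 at h
  rcases brec_true h with h | h
  · exact dp_b_3_s hinv hr hH j u hu h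
  · exact dp_b_15_s hinv hr hH j u hu h
theorem dp_b_17_s (hinv : ∀ x, g (inv x) = (g x)⁻¹) (hr : ∀ r ∈ rels, (r.map g).prod = 1) (hH : ∀ r ∈ subs, (r.map g).prod ∈ H)
    (j u : ℕ) (hu : u < M) (h : dp_b_17 j u = true) : Good (fa g) T MG M (cP g H) Lt.b u := by
  unfold dp_b_17 at h
  rcases brec_true h with h | h
  · exact dp_b_0_s hinv hr hH j u hu h
  · exact dp_b_16_s hinv hr hH j u hu h
theorem dp_b_18_s (hinv : ∀ x, g (inv x) = (g x)⁻¹) (hr : ∀ r ∈ rels, (r.map g).prod = 1) (hH : ∀ r ∈ subs, (r.map g).prod ∈ H)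
    (j u : ℕ) (hu : u < M) (h : dp_b_18 j u = true) : Good (fa g) T MG M (cP g H) Lt.b u := by
  unfold dp_b_18 at h
  rcases brec_true h with h | h
  · exact lF1_good (T := T) (x := Lt.b) (by decide) .bi (hole_at (rf_13 hinv hr) 1 rfl) h
  · exact dp_b_17_s hinv hr hH j u hu h
theorem snd_b (hinv : ∀ x, g (inv x) = (g x)⁻¹) (hr : ∀ r ∈ rels, (r.map g).prod = 1) (hH : ∀ r ∈ subs, (r.map g).prod ∈ H)
    (j u : ℕ) (hu : u < M) (h : disp_b j u = true) : Good (fa g) T MG M (cP g H) Lt.b u := by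
  unfold disp_b at h
  rcases brec_true h with h | h
  · rcases brec_true h with h | h
    · exact lPar_good (T := T) (x := Lt.b) (x' := Lt.bi) (by decide) rfl (inv_rel hinv _ _ rfl) h
    · exact lDef_good (T := T) (x := Lt.b) (by decide) rfl h
  · rcases brec_true h with h | h
    · exact lF_good (T := T) (x := Lt.b) (by decide) [Lt.b, Lt.b] (hole_at (rf_1 hinv hr) 0 rfl) h
    · exact dp_b_18_s hinv hr hH j u hu h
theorem snc_b (hinv : ∀ x, g (inv x) = (g x)⁻¹) (hr : ∀ r ∈ rels, (r.map g).prod = 1) (hH : ∀ r ∈ subs, (r.map g).prod ∈ H)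
    (j u : ℕ) (hu : u < M) (h : chk_b j u = true) : (T Lt.b u < A ∧ Good (fa g) T MG M (cP g H) Lt.b u) ∨ (A ≤ T Lt.b u ∧ MG u < A) := by
  unfold chk_b at h
  cases hb : Nat.ble A (T_b u) with
  | true => rw [hb] at h; exact Or.inr ⟨le_of_ble hb, le_of_ble h⟩
  | false => rw [hb] at h; exact Or.inl ⟨lt_of_ble_false hb, snd_b hinv hr hH j u hu h⟩
theorem dp_bi_0_s (hinv : ∀ x, g (inv x) = (g x)⁻¹) (hr : ∀ r ∈ rels, (r.map g).prod = 1) (hH : ∀ r ∈ subs, (r.map g).prod ∈ H)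
    (j u : ℕ) (hu : u < M) (h : dp_bi_0 j u = true) : Good (fa g) T MG M (cP g H) Lt.bi u := by
  unfold dp_bi_0 at h
  rcases brec_true h with h | h
  · exact lF_good (T := T) (x := Lt.bi) (by decide) [Lt.ci, Lt.bi, Lt.a, Lt.a, Lt.b, Lt.a, Lt.a, Lt.a, Lt.c, Lt.bi, Lt.a] (hole_at (rf_2 hinv hr) 4 rfl) h
  · exact lS_good (T := T) (x := Lt.bi) (by decide) hu [Lt.ci, Lt.bi, Lt.a, Lt.a, Lt.b, Lt.a, Lt.a, Lt.a, Lt.c, Lt.bi, Lt.a] (hole_at (rf_2 hinv hr) 4 rfl) h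
theorem dp_bi_1_s (hinv : ∀ x, g (inv x) = (g x)⁻¹) (hr : ∀ r ∈ rels, (r.map g).prod = 1) (hH : ∀ r ∈ subs, (r.map g).prod ∈ H)
    (j u : ℕ) (hu : u < M) (h : dp_bi_1 j u = true) : Good (fa g) T MG M (cP g H) Lt.bi u := by
  unfold dp_bi_1 at h
  rcases brec_true h with h | h
  · exact lS_good (T := T) (x := Lt.bi) (by decide) hu [Lt.a, Lt.bi, Lt.ci, Lt.bi, Lt.a, Lt.a, Lt.b, Lt.a, Lt.a, Lt.a, Lt.c] (hole_at (rf_2 hinv hr) 2 rfl) h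
  · exact dp_bi_0_s hinv hr hH j u hu h
theorem dp_bi_2_s (hinv : ∀ x, g (inv x) = (g x)⁻¹) (hr : ∀ r ∈ rels, (r.map g).prod = 1) (hH : ∀ r ∈ subs, (r.map g).prod ∈ H)
    (j u : ℕ) (hu : u < M) (h : dp_bi_2 j u = true) : Good (fa g) T MG M (cP g H) Lt.bi u := by
  unfold dp_bi_2 at h
  rcases brec_true h with h | h
  · exact lS_good (T := T) (x := Lt.bi) (by decide) hu [Lt.ai, Lt.ai, Lt.b, Lt.c, Lt.b, Lt.ai, Lt.b, Lt.ci, Lt.ai, Lt.ai, Lt.ai] (hole_at (rb_2 hinv hr) 4 rfl) h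
  · exact lS_good (T := T) (x := Lt.bi) (by decide) hu [Lt.a, Lt.a, Lt.b, Lt.ai, Lt.bi, Lt.ai, Lt.ai, Lt.b, Lt.ai, Lt.b, Lt.ai, Lt.bi, Lt.a] (hole_at (rb_4 hinv hr) 7 rfl) h
theorem dp_bi_3_s (hinv : ∀ x, g (inv x) = (g x)⁻¹) (hr : ∀ r ∈ rels, (r.map g).prod = 1) (hH : ∀ r ∈ subs, (r.map g).prod ∈ H)
    (j u : ℕ) (hu : u < M) (h : dp_bi_3 j u = true) : Good (fa g) T MG M (cP g H) Lt.bi u := by
  unfold dp_bi_3 at h
  rcases brec_true h with h | h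
  · exact lS_good (T := T) (x := Lt.bi) (by decide) hu [Lt.a, Lt.a, Lt.b, Lt.a, Lt.a, Lt.a, Lt.c, Lt.bi, Lt.a, Lt.bi, Lt.ci] (hole_at (rf_2 hinv hr) 6 rfl) h
  · exact dp_bi_2_s hinv hr hH j u hu h
theorem dp_bi_4_s (hinv : ∀ x, g (inv x) = (g x)⁻¹) (hr : ∀ r ∈ rels, (r.map g).prod = 1) (hH : ∀ r ∈ subs, (r.map g).prod ∈ H)
    (j u : ℕ) (hu : u < M) (h : dp_bi_4 j u = true) : Good (fa g) T MG M (cP g H) Lt.bi u := by
  unfold dp_bi_4 at h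
  rcases brec_true h with h | h
  · exact lF_good (T := T) (x := Lt.bi) (by decide) [Lt.ai, Lt.ai, Lt.ci, Lt.b, Lt.ai, Lt.b, Lt.c, Lt.bi, Lt.a, Lt.bi, Lt.c, Lt.a, Lt.a] (hole_at (rb_3 hinv hr) 3 rfl) h
  · exact lF_good (T := T) (x := Lt.bi) (by decide) [Lt.a, Lt.a, Lt.b, Lt.a, Lt.bi, Lt.ai, Lt.ai, Lt.b, Lt.ai, Lt.b, Lt.a, Lt.bi, Lt.a] (hole_at (rf_4 hinv hr) 0 rfl) h
theorem dp_bi_5_s (hinv : ∀ x, g (inv x) = (g x)⁻¹) (hr : ∀ r ∈ rels, (r.map g).prod = 1) (hH : ∀ r ∈ subs, (r.map g).prod ∈ H)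
    (j u : ℕ) (hu : u < M) (h : dp_bi_5 j u = true) : Good (fa g) T MG M (cP g H) Lt.bi u := by
  unfold dp_bi_5 at h
  rcases brec_true h with h | h
  · exact lF_good (T := T) (x := Lt.bi) (by decide) [Lt.a, Lt.a, Lt.b, Lt.a, Lt.a, Lt.a, Lt.c, Lt.bi, Lt.a, Lt.bi, Lt.ci] (hole_at (rf_2 hinv hr) 6 rfl) h
  · exact dp_bi_4_s hinv hr hH j u hu h
theorem dp_bi_6_s (hinv : ∀ x, g (inv x) = (g x)⁻¹) (hr : ∀ r ∈ rels, (r.map g).prod = 1) (hH : ∀ r ∈ subs, (r.map g).prod ∈ H)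
    (j u : ℕ) (hu : u < M) (h : dp_bi_6 j u = true) : Good (fa g) T MG M (cP g H) Lt.bi u := by
  unfold dp_bi_6 at h
  rcases brec_true h with h | h
  · exact lS_good (T := T) (x := Lt.bi) (by decide) hu [Lt.a, Lt.bi, Lt.a, Lt.a, Lt.b, Lt.a, Lt.bi, Lt.ai, Lt.ai, Lt.b, Lt.ai, Lt.b, Lt.a] (hole_at (rf_4 hinv hr) 12 rfl) h
  · exact lF_good (T := T) (x := Lt.bi) (by decide) [Lt.a, Lt.bi, Lt.ci, Lt.bi, Lt.a, Lt.a, Lt.b, Lt.a, Lt.a, Lt.a, Lt.c] (hole_at (rf_2 hinv hr) 2 rfl) h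
theorem dp_bi_7_s (hinv : ∀ x, g (inv x) = (g x)⁻¹) (hr : ∀ r ∈ rels, (r.map g).prod = 1) (hH : ∀ r ∈ subs, (r.map g).prod ∈ H)
    (j u : ℕ) (hu : u < M) (h : dp_bi_7 j u = true) : Good (fa g) T MG M (cP g H) Lt.bi u := by
  unfold dp_bi_7 at h
  rcases brec_true h with h | h
  · exact lS_good (T := T) (x := Lt.bi) (by decide) hu [Lt.ai, Lt.ai, Lt.b, Lt.ai, Lt.b, Lt.a, Lt.bi, Lt.a, Lt.bi, Lt.a, Lt.a, Lt.b, Lt.a] (hole_at (rf_4 hinv hr) 5 rfl) h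
  · exact lS_good (T := T) (x := Lt.bi) (by decide) hu [Lt.a, Lt.a, Lt.b, Lt.a, Lt.bi, Lt.ai, Lt.ai, Lt.b, Lt.ai, Lt.b, Lt.a, Lt.bi, Lt.a] (hole_at (rf_4 hinv hr) 0 rfl) h
theorem dp_bi_8_s (hinv : ∀ x, g (inv x) = (g x)⁻¹) (hr : ∀ r ∈ rels, (r.map g).prod = 1) (hH : ∀ r ∈ subs, (r.map g).prod ∈ H)
    (j u : ℕ) (hu : u < M) (h : dp_bi_8 j u = true) : Good (fa g) T MG M (cP g H) Lt.bi u := by
  unfold dp_bi_8 at h
  rcases brec_true h with h | h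
  · exact dp_bi_6_s hinv hr hH j u hu h
  · exact dp_bi_7_s hinv hr hH j u hu h
theorem dp_bi_9_s (hinv : ∀ x, g (inv x) = (g x)⁻¹) (hr : ∀ r ∈ rels, (r.map g).prod = 1) (hH : ∀ r ∈ subs, (r.map g).prod ∈ H)
    (j u : ℕ) (hu : u < M) (h : dp_bi_9 j u = true) : Good (fa g) T MG M (cP g H) Lt.bi u := by
  unfold dp_bi_9 at h
  rcases brec_true h with h | h
  · exact dp_bi_5_s hinv hr hH j u hu h
  · exact dp_bi_8_s hinv hr hH j u hu h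
theorem dp_bi_10_s (hinv : ∀ x, g (inv x) = (g x)⁻¹) (hr : ∀ r ∈ rels, (r.map g).prod = 1) (hH : ∀ r ∈ subs, (r.map g).prod ∈ H)
    (j u : ℕ) (hu : u < M) (h : dp_bi_10 j u = true) : Good (fa g) T MG M (cP g H) Lt.bi u := by
  unfold dp_bi_10 at h
  rcases brec_true h with h | h
  · exact dp_bi_3_s hinv hr hH j u hu h
  · exact dp_bi_9_s hinv hr hH j u hu h
theorem dp_bi_11_s (hinv : ∀ x, g (inv x) = (g x)⁻¹) (hr : ∀ r ∈ rels, (r.map g).prod = 1) (hH : ∀ r ∈ subs, (r.map g).prod ∈ H)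
    (j u : ℕ) (hu : u < M) (h : dp_bi_11 j u = true) : Good (fa g) T MG M (cP g H) Lt.bi u := by
  unfold dp_bi_11 at h
  rcases brec_true h with h | h
  · exact dp_bi_1_s hinv hr hH j u hu h
  · exact dp_bi_10_s hinv hr hH j u hu h
theorem dp_bi_12_s (hinv : ∀ x, g (inv x) = (g x)⁻¹) (hr : ∀ r ∈ rels, (r.map g).prod = 1) (hH : ∀ r ∈ subs, (r.map g).prod ∈ H)
    (j u : ℕ) (hu : u < M) (h : dp_bi_12 j u = true) : Good (fa g) T MG M (cP g H) Lt.bi u := by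
  unfold dp_bi_12 at h
  rcases brec_true h with h | h
  · rcases brec_true h with h | h
    · exact lS_good (T := T) (x := Lt.bi) (by decide) hu [Lt.b] (hole_at (rf_13 hinv hr) 0 rfl) h
    · exact lF_good (T := T) (x := Lt.bi) (by decide) [Lt.bi, Lt.bi] (hole_at (rb_1 hinv hr) 0 rfl) h
  · exact dp_bi_11_s hinv hr hH j u hu h
theorem dp_bi_13_s (hinv : ∀ x, g (inv x) = (g x)⁻¹) (hr : ∀ r ∈ rels, (r.map g).prod = 1) (hH : ∀ r ∈ subs, (r.map g).prod ∈ H)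
    (j u : ℕ) (hu : u < M) (h : dp_bi_13 j u = true) : Good (fa g) T MG M (cP g H) Lt.bi u := by
  unfold dp_bi_13 at h
  rcases brec_true h with h | h
  · exact lPar_good (T := T) (x := Lt.bi) (x' := Lt.b) (by decide) rfl (inv_rel hinv _ _ rfl) h
  · exact dp_bi_12_s hinv hr hH j u hu h
theorem snd_bi (hinv : ∀ x, g (inv x) = (g x)⁻¹) (hr : ∀ r ∈ rels, (r.map g).prod = 1) (hH : ∀ r ∈ subs, (r.map g).prod ∈ H)
    (j u : ℕ) (hu : u < M) (h : disp_bi j u = true) : Good (fa g) T MG M (cP g H) Lt.bi u := by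
  unfold disp_bi at h
  rcases brec_true h with h | h
  · rcases brec_true h with h | h
    · exact lF1_good (T := T) (x := Lt.bi) (by decide) .b (hole_at (rf_13 hinv hr) 0 rfl) h
    · exact lDef_good (T := T) (x := Lt.bi) (by decide) rfl h
  · exact dp_bi_13_s hinv hr hH j u hu h
theorem snc_bi (hinv : ∀ x, g (inv x) = (g x)⁻¹) (hr : ∀ r ∈ rels, (r.map g).prod = 1) (hH : ∀ r ∈ subs, (r.map g).prod ∈ H)
    (j u : ℕ) (hu : u < M) (h : chk_bi j u = true) : (T Lt.bi u < A ∧ Good (fa g) T MG M (cP g H) Lt.bi u) ∨ (A ≤ T Lt.bi u ∧ MG u < A) := by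
  unfold chk_bi at h
  cases hb : Nat.ble A (T_bi u) with
  | true => rw [hb] at h; exact Or.inr ⟨le_of_ble hb, le_of_ble h⟩
  | false => rw [hb] at h; exact Or.inl ⟨lt_of_ble_false hb, snd_bi hinv hr hH j u hu h⟩
theorem dp_c_0_s (hinv : ∀ x, g (inv x) = (g x)⁻¹) (hr : ∀ r ∈ rels, (r.map g).prod = 1) (hH : ∀ r ∈ subs, (r.map g).prod ∈ H)
    (j u : ℕ) (hu : u < M) (h : dp_c_0 j u = true) : Good (fa g) T MG M (cP g H) Lt.c u := by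
  unfold dp_c_0 at h
  rcases brec_true h with h | h
  · exact lS_good (T := T) (x := Lt.c) (by decide) hu [Lt.ci] (hole_at (rf_15 hinv hr) 1 rfl) h
  · exact lF_good (T := T) (x := Lt.c) (by decide) [Lt.bi, Lt.a, Lt.bi, Lt.ci, Lt.bi, Lt.a, Lt.a, Lt.b, Lt.a, Lt.a, Lt.a] (hole_at (rf_2 hinv hr) 1 rfl) h
theorem dp_c_1_s (hinv : ∀ x, g (inv x) = (g x)⁻¹) (hr : ∀ r ∈ rels, (r.map g).prod = 1) (hH : ∀ r ∈ subs, (r.map g).prod ∈ H)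
    (j u : ℕ) (hu : u < M) (h : dp_c_1 j u = true) : Good (fa g) T MG M (cP g H) Lt.c u := by
  unfold dp_c_1 at h
  rcases brec_true h with h | h
  · exact lS_good (T := T) (x := Lt.c) (by decide) hu [Lt.b, Lt.ai, Lt.b, Lt.ci, Lt.ai, Lt.ai, Lt.ai, Lt.bi, Lt.ai, Lt.ai, Lt.b] (hole_at (rb_2 hinv hr) 8 rfl) h
  · exact lF_good (T := T) (x := Lt.c) (by decide) [Lt.b, Lt.ai, Lt.b, Lt.ci, Lt.ai, Lt.ai, Lt.ai, Lt.bi, Lt.ai, Lt.ai, Lt.b] (hole_at (rb_2 hinv hr) 8 rfl) h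
theorem dp_c_2_s (hinv : ∀ x, g (inv x) = (g x)⁻¹) (hr : ∀ r ∈ rels, (r.map g).prod = 1) (hH : ∀ r ∈ subs, (r.map g).prod ∈ H)
    (j u : ℕ) (hu : u < M) (h : dp_c_2 j u = true) : Good (fa g) T MG M (cP g H) Lt.c u := by
  unfold dp_c_2 at h
  rcases brec_true h with h | h
  · exact lS_good (T := T) (x := Lt.c) (by decide) hu [Lt.bi, Lt.a, Lt.bi, Lt.ci, Lt.bi, Lt.a, Lt.a, Lt.b, Lt.a, Lt.a, Lt.a] (hole_at (rf_2 hinv hr) 1 rfl) h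
  · exact dp_c_1_s hinv hr hH j u hu h
theorem dp_c_3_s (hinv : ∀ x, g (inv x) = (g x)⁻¹) (hr : ∀ r ∈ rels, (r.map g).prod = 1) (hH : ∀ r ∈ subs, (r.map g).prod ∈ H)
    (j u : ℕ) (hu : u < M) (h : dp_c_3 j u = true) : Good (fa g) T MG M (cP g H) Lt.c u := by
  unfold dp_c_3 at h
  rcases brec_true h with h | h
  · exact lS_good (T := T) (x := Lt.c) (by decide) hu [Lt.ai, Lt.c, Lt.bi, Lt.ci, Lt.a, Lt.ci, Lt.ai, Lt.ai, Lt.bi, Lt.a, Lt.b, Lt.ai, Lt.bi, Lt.ai] (hole_at (rb_5 hinv hr) 9 rfl) h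
  · exact lS_good (T := T) (x := Lt.c) (by decide) hu [Lt.ai, Lt.c, Lt.a, Lt.a, Lt.a, Lt.a, Lt.ci, Lt.a, Lt.ci, Lt.a, Lt.bi, Lt.a, Lt.a, Lt.b] (hole_at (rf_7 hinv hr) 9 rfl) h
theorem dp_c_4_s (hinv : ∀ x, g (inv x) = (g x)⁻¹) (hr : ∀ r ∈ rels, (r.map g).prod = 1) (hH : ∀ r ∈ subs, (r.map g).prod ∈ H)
    (j u : ℕ) (hu : u < M) (h : dp_c_4 j u = true) : Good (fa g) T MG M (cP g H) Lt.c u := by
  unfold dp_c_4 at h
  rcases brec_true h with h | h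
  · exact lF_good (T := T) (x := Lt.c) (by decide) [Lt.ai, Lt.c, Lt.a, Lt.a, Lt.a, Lt.a, Lt.ci, Lt.a, Lt.ci, Lt.a, Lt.bi, Lt.a, Lt.a, Lt.b] (hole_at (rf_7 hinv hr) 9 rfl) h
  · exact dp_c_3_s hinv hr hH j u hu h
theorem dp_c_5_s (hinv : ∀ x, g (inv x) = (g x)⁻¹) (hr : ∀ r ∈ rels, (r.map g).prod = 1) (hH : ∀ r ∈ subs, (r.map g).prod ∈ H)
    (j u : ℕ) (hu : u < M) (h : dp_c_5 j u = true) : Good (fa g) T MG M (cP g H) Lt.c u := by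
  unfold dp_c_5 at h
  rcases brec_true h with h | h
  · exact lS_good (T := T) (x := Lt.c) (by decide) hu [Lt.ai, Lt.c, Lt.ai, Lt.bi, Lt.ai, Lt.ai, Lt.b, Lt.ci, Lt.a, Lt.ci, Lt.ai, Lt.ai, Lt.ai, Lt.ai] (hole_at (rb_6 hinv hr) 5 rfl) h
  · exact dp_c_4_s hinv hr hH j u hu h
theorem dp_c_6_s (hinv : ∀ x, g (inv x) = (g x)⁻¹) (hr : ∀ r ∈ rels, (r.map g).prod = 1) (hH : ∀ r ∈ subs, (r.map g).prod ∈ H)
    (j u : ℕ) (hu : u < M) (h : dp_c_6 j u = true) : Good (fa g) T MG M (cP g H) Lt.c u := by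
  unfold dp_c_6 at h
  rcases brec_true h with h | h
  · exact lS_good (T := T) (x := Lt.c) (by decide) hu [Lt.ai, Lt.ai, Lt.ai, Lt.ai, Lt.ci, Lt.a, Lt.ci, Lt.bi, Lt.ai, Lt.ai, Lt.b, Lt.ai, Lt.c, Lt.ai] (hole_at (rb_7 hinv hr) 0 rfl) h
  · exact lS_good (T := T) (x := Lt.c) (by decide) hu [Lt.a, Lt.a, Lt.bi, Lt.ai, Lt.ai, Lt.ci, Lt.b, Lt.ai, Lt.b, Lt.c, Lt.bi, Lt.a, Lt.bi] (hole_at (rb_3 hinv hr) 0 rfl) h
theorem dp_c_7_s (hinv : ∀ x, g (inv x) = (g x)⁻¹) (hr : ∀ r ∈ rels, (r.map g).prod = 1) (hH : ∀ r ∈ subs, (r.map g).prod ∈ H)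
    (j u : ℕ) (hu : u < M) (h : dp_c_7 j u = true) : Good (fa g) T MG M (cP g H) Lt.c u := by
  unfold dp_c_7 at h
  rcases brec_true h with h | h
  · exact lF_good (T := T) (x := Lt.c) (by decide) [Lt.a, Lt.a, Lt.b, Lt.ai, Lt.ai, Lt.ci, Lt.b, Lt.ai, Lt.b, Lt.ci, Lt.bi, Lt.a, Lt.bi] (hole_at (rf_3 hinv hr) 9 rfl) h
  · exact dp_c_6_s hinv hr hH j u hu h
theorem dp_c_8_s (hinv : ∀ x, g (inv x) = (g x)⁻¹) (hr : ∀ r ∈ rels, (r.map g).prod = 1) (hH : ∀ r ∈ subs, (r.map g).prod ∈ H)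
    (j u : ℕ) (hu : u < M) (h : dp_c_8 j u = true) : Good (fa g) T MG M (cP g H) Lt.c u := by
  unfold dp_c_8 at h
  rcases brec_true h with h | h
  · exact lS_good (T := T) (x := Lt.c) (by decide) hu [Lt.ai, Lt.bi, Lt.ai, Lt.ai, Lt.b, Lt.ci, Lt.a, Lt.ci, Lt.ai, Lt.ai, Lt.ai, Lt.ai, Lt.c, Lt.ai] (hole_at (rb_6 hinv hr) 7 rfl) h
  · exact lS_good (T := T) (x := Lt.c) (by decide) hu [Lt.a, Lt.a, Lt.b, Lt.ai, Lt.ai, Lt.ci, Lt.b, Lt.ai, Lt.b, Lt.ci, Lt.bi, Lt.a, Lt.bi] (hole_at (rf_3 hinv hr) 9 rfl) h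
theorem dp_c_9_s (hinv : ∀ x, g (inv x) = (g x)⁻¹) (hr : ∀ r ∈ rels, (r.map g).prod = 1) (hH : ∀ r ∈ subs, (r.map g).prod ∈ H)
    (j u : ℕ) (hu : u < M) (h : dp_c_9 j u = true) : Good (fa g) T MG M (cP g H) Lt.c u := by
  unfold dp_c_9 at h
  rcases brec_true h with h | h
  · exact lS_good (T := T) (x := Lt.c) (by decide) hu [Lt.ai, Lt.c, Lt.ai, Lt.ai, Lt.ai, Lt.ai, Lt.ci, Lt.a, Lt.ci, Lt.bi, Lt.ai, Lt.ai, Lt.b, Lt.ai] (hole_at (rb_7 hinv hr) 13 rfl) h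
  · exact lF_good (T := T) (x := Lt.c) (by decide) [Lt.ai, Lt.c, Lt.bi, Lt.a, Lt.a, Lt.b, Lt.a, Lt.ci, Lt.a, Lt.ci, Lt.a, Lt.a, Lt.a, Lt.a] (hole_at (rf_6 hinv hr) 1 rfl) h
theorem dp_c_10_s (hinv : ∀ x, g (inv x) = (g x)⁻¹) (hr : ∀ r ∈ rels, (r.map g).prod = 1) (hH : ∀ r ∈ subs, (r.map g).prod ∈ H)
    (j u : ℕ) (hu : u < M) (h : dp_c_10 j u = true) : Good (fa g) T MG M (cP g H) Lt.c u := by
  unfold dp_c_10 at h
  rcases brec_true h with h | h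
  · exact dp_c_8_s hinv hr hH j u hu h
  · exact dp_c_9_s hinv hr hH j u hu h
theorem dp_c_11_s (hinv : ∀ x, g (inv x) = (g x)⁻¹) (hr : ∀ r ∈ rels, (r.map g).prod = 1) (hH : ∀ r ∈ subs, (r.map g).prod ∈ H)
    (j u : ℕ) (hu : u < M) (h : dp_c_11 j u = true) : Good (fa g) T MG M (cP g H) Lt.c u := by
  unfold dp_c_11 at h
  rcases brec_true h with h | h
  · exact dp_c_7_s hinv hr hH j u hu h
  · exact dp_c_10_s hinv hr hH j u hu h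
theorem dp_c_12_s (hinv : ∀ x, g (inv x) = (g x)⁻¹) (hr : ∀ r ∈ rels, (r.map g).prod = 1) (hH : ∀ r ∈ subs, (r.map g).prod ∈ H)
    (j u : ℕ) (hu : u < M) (h : dp_c_12 j u = true) : Good (fa g) T MG M (cP g H) Lt.c u := by
  unfold dp_c_12 at h
  rcases brec_true h with h | h
  · exact dp_c_5_s hinv hr hH j u hu h
  · exact dp_c_11_s hinv hr hH j u hu h
theorem dp_c_13_s (hinv : ∀ x, g (inv x) = (g x)⁻¹) (hr : ∀ r ∈ rels, (r.map g).prod = 1) (hH : ∀ r ∈ subs, (r.map g).prod ∈ H)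
    (j u : ℕ) (hu : u < M) (h : dp_c_13 j u = true) : Good (fa g) T MG M (cP g H) Lt.c u := by
  unfold dp_c_13 at h
  rcases brec_true h with h | h
  · exact dp_c_2_s hinv hr hH j u hu h
  · exact dp_c_12_s hinv hr hH j u hu h
theorem dp_c_14_s (hinv : ∀ x, g (inv x) = (g x)⁻¹) (hr : ∀ r ∈ rels, (r.map g).prod = 1) (hH : ∀ r ∈ subs, (r.map g).prod ∈ H)
    (j u : ℕ) (hu : u < M) (h : dp_c_14 j u = true) : Good (fa g) T MG M (cP g H) Lt.c u := by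
  unfold dp_c_14 at h
  rcases brec_true h with h | h
  · exact dp_c_0_s hinv hr hH j u hu h
  · exact dp_c_13_s hinv hr hH j u hu h
theorem dp_c_15_s (hinv : ∀ x, g (inv x) = (g x)⁻¹) (hr : ∀ r ∈ rels, (r.map g).prod = 1) (hH : ∀ r ∈ subs, (r.map g).prod ∈ H)
    (j u : ℕ) (hu : u < M) (h : dp_c_15 j u = true) : Good (fa g) T MG M (cP g H) Lt.c u := by
  unfold dp_c_15 at h
  rcases brec_true h with h | h
  · exact lF1_good (T := T) (x := Lt.c) (by decide) .ci (hole_at (rf_15 hinv hr) 1 rfl) h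
  · exact dp_c_14_s hinv hr hH j u hu h
theorem snd_c (hinv : ∀ x, g (inv x) = (g x)⁻¹) (hr : ∀ r ∈ rels, (r.map g).prod = 1) (hH : ∀ r ∈ subs, (r.map g).prod ∈ H)
    (j u : ℕ) (hu : u < M) (h : disp_c j u = true) : Good (fa g) T MG M (cP g H) Lt.c u := by
  unfold disp_c at h
  rcases brec_true h with h | h
  · rcases brec_true h with h | h
    · exact lDef_good (T := T) (x := Lt.c) (by decide) rfl h
    · exact lPar_good (T := T) (x := Lt.c) (x' := Lt.ci) (by decide) rfl (inv_rel hinv _ _ rfl) h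
  · rcases brec_true h with h | h
    · exact lF_good (T := T) (x := Lt.c) (by decide) [Lt.c, Lt.c] (hole_at (rf_0 hinv hr) 0 rfl) h
    · exact dp_c_15_s hinv hr hH j u hu h
theorem snc_c (hinv : ∀ x, g (inv x) = (g x)⁻¹) (hr : ∀ r ∈ rels, (r.map g).prod = 1) (hH : ∀ r ∈ subs, (r.map g).prod ∈ H)
    (j u : ℕ) (hu : u < M) (h : chk_c j u = true) : (T Lt.c u < A ∧ Good (fa g) T MG M (cP g H) Lt.c u) ∨ (A ≤ T Lt.c u ∧ MG u < A) := by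
  unfold chk_c at h
  cases hb : Nat.ble A (T_c u) with
  | true => rw [hb] at h; exact Or.inr ⟨le_of_ble hb, le_of_ble h⟩
  | false => rw [hb] at h; exact Or.inl ⟨lt_of_ble_false hb, snd_c hinv hr hH j u hu h⟩
theorem dp_ci_0_s (hinv : ∀ x, g (inv x) = (g x)⁻¹) (hr : ∀ r ∈ rels, (r.map g).prod = 1) (hH : ∀ r ∈ subs, (r.map g).prod ∈ H)
    (j u : ℕ) (hu : u < M) (h : dp_ci_0 j u = true) : Good (fa g) T MG M (cP g H) Lt.ci u := by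
  unfold dp_ci_0 at h
  rcases brec_true h with h | h
  · exact lS_good (T := T) (x := Lt.ci) (by decide) hu [Lt.c] (hole_at (rf_15 hinv hr) 0 rfl) h
  · exact lF_good (T := T) (x := Lt.ci) (by decide) [Lt.ci, Lt.ci] (hole_at (rb_0 hinv hr) 0 rfl) h
theorem dp_ci_1_s (hinv : ∀ x, g (inv x) = (g x)⁻¹) (hr : ∀ r ∈ rels, (r.map g).prod = 1) (hH : ∀ r ∈ subs, (r.map g).prod ∈ H)
    (j u : ℕ) (hu : u < M) (h : dp_ci_1 j u = true) : Good (fa g) T MG M (cP g H) Lt.ci u := by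
  unfold dp_ci_1 at h
  rcases brec_true h with h | h
  · exact lS_good (T := T) (x := Lt.ci) (by decide) hu [Lt.a, Lt.ci, Lt.bi, Lt.ai, Lt.ai, Lt.b, Lt.ai, Lt.c, Lt.ai, Lt.c, Lt.ai, Lt.ai, Lt.ai, Lt.ai] (hole_at (rb_7 hinv hr) 5 rfl) h
  · exact lF_good (T := T) (x := Lt.ci) (by decide) [Lt.bi, Lt.a, Lt.a, Lt.b, Lt.a, Lt.a, Lt.a, Lt.c, Lt.bi, Lt.a, Lt.bi] (hole_at (rf_2 hinv hr) 5 rfl) h
theorem dp_ci_2_s (hinv : ∀ x, g (inv x) = (g x)⁻¹) (hr : ∀ r ∈ rels, (r.map g).prod = 1) (hH : ∀ r ∈ subs, (r.map g).prod ∈ H)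
    (j u : ℕ) (hu : u < M) (h : dp_ci_2 j u = true) : Good (fa g) T MG M (cP g H) Lt.ci u := by
  unfold dp_ci_2 at h
  rcases brec_true h with h | h
  · exact lS_good (T := T) (x := Lt.ci) (by decide) hu [Lt.bi, Lt.a, Lt.a, Lt.b, Lt.a, Lt.a, Lt.a, Lt.c, Lt.bi, Lt.a, Lt.bi] (hole_at (rf_2 hinv hr) 5 rfl) h
  · exact dp_ci_1_s hinv hr hH j u hu h
theorem dp_ci_3_s (hinv : ∀ x, g (inv x) = (g x)⁻¹) (hr : ∀ r ∈ rels, (r.map g).prod = 1) (hH : ∀ r ∈ subs, (r.map g).prod ∈ H)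
    (j u : ℕ) (hu : u < M) (h : dp_ci_3 j u = true) : Good (fa g) T MG M (cP g H) Lt.ci u := by
  unfold dp_ci_3 at h
  rcases brec_true h with h | h
  · exact lS_good (T := T) (x := Lt.ci) (by decide) hu [Lt.ai, Lt.ai, Lt.ai, Lt.bi, Lt.ai, Lt.ai, Lt.b, Lt.c, Lt.b, Lt.ai, Lt.b] (hole_at (rb_2 hinv hr) 0 rfl) h
  · exact dp_ci_2_s hinv hr hH j u hu h
theorem dp_ci_4_s (hinv : ∀ x, g (inv x) = (g x)⁻¹) (hr : ∀ r ∈ rels, (r.map g).prod = 1) (hH : ∀ r ∈ subs, (r.map g).prod ∈ H)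
    (j u : ℕ) (hu : u < M) (h : dp_ci_4 j u = true) : Good (fa g) T MG M (cP g H) Lt.ci u := by
  unfold dp_ci_4 at h
  rcases brec_true h with h | h
  · exact lS_good (T := T) (x := Lt.ci) (by decide) hu [Lt.a, Lt.ci, Lt.ai, Lt.ai, Lt.ai, Lt.ai, Lt.c, Lt.ai, Lt.c, Lt.ai, Lt.bi, Lt.ai, Lt.ai, Lt.b] (hole_at (rb_6 hinv hr) 13 rfl) h
  · exact lF_good (T := T) (x := Lt.ci) (by decide) [Lt.bi, Lt.a, Lt.bi, Lt.c, Lt.a, Lt.a, Lt.b, Lt.ai, Lt.ai, Lt.ci, Lt.b, Lt.ai, Lt.b] (hole_at (rf_3 hinv hr) 5 rfl) h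
theorem dp_ci_5_s (hinv : ∀ x, g (inv x) = (g x)⁻¹) (hr : ∀ r ∈ rels, (r.map g).prod = 1) (hH : ∀ r ∈ subs, (r.map g).prod ∈ H)
    (j u : ℕ) (hu : u < M) (h : dp_ci_5 j u = true) : Good (fa g) T MG M (cP g H) Lt.ci u := by
  unfold dp_ci_5 at h
  rcases brec_true h with h | h
  · exact lF_good (T := T) (x := Lt.ci) (by decide) [Lt.a, Lt.ci, Lt.ai, Lt.ai, Lt.ai, Lt.ai, Lt.c, Lt.ai, Lt.c, Lt.ai, Lt.bi, Lt.ai, Lt.ai, Lt.b] (hole_at (rb_6 hinv hr) 13 rfl) h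
  · exact dp_ci_4_s hinv hr hH j u hu h
theorem dp_ci_6_s (hinv : ∀ x, g (inv x) = (g x)⁻¹) (hr : ∀ r ∈ rels, (r.map g).prod = 1) (hH : ∀ r ∈ subs, (r.map g).prod ∈ H)
    (j u : ℕ) (hu : u < M) (h : dp_ci_6 j u = true) : Good (fa g) T MG M (cP g H) Lt.ci u := by
  unfold dp_ci_6 at h
  rcases brec_true h with h | h
  · exact lS_good (T := T) (x := Lt.ci) (by decide) hu [Lt.bi, Lt.a, Lt.bi, Lt.a, Lt.a, Lt.c, Lt.ai, Lt.c, Lt.ai, Lt.ai, Lt.ai, Lt.ai, Lt.ci, Lt.a] (hole_at (rb_8 hinv hr) 7 rfl) h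
  · exact lS_good (T := T) (x := Lt.ci) (by decide) hu [Lt.b, Lt.ai, Lt.b, Lt.c, Lt.bi, Lt.a, Lt.bi, Lt.c, Lt.a, Lt.a, Lt.bi, Lt.ai, Lt.ai] (hole_at (rb_3 hinv hr) 6 rfl) h
theorem dp_ci_7_s (hinv : ∀ x, g (inv x) = (g x)⁻¹) (hr : ∀ r ∈ rels, (r.map g).prod = 1) (hH : ∀ r ∈ subs, (r.map g).prod ∈ H)
    (j u : ℕ) (hu : u < M) (h : dp_ci_7 j u = true) : Good (fa g) T MG M (cP g H) Lt.ci u := by
  unfold dp_ci_7 at h
  rcases brec_true h with h | h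
  · exact lS_good (T := T) (x := Lt.ci) (by decide) hu [Lt.a, Lt.ci, Lt.a, Lt.b, Lt.a, Lt.bi, Lt.ai, Lt.b, Lt.a, Lt.a, Lt.c, Lt.ai, Lt.c, Lt.b] (hole_at (rf_5 hinv hr) 5 rfl) h
  · exact lS_good (T := T) (x := Lt.ci) (by decide) hu [Lt.a, Lt.bi, Lt.a, Lt.a, Lt.b, Lt.c, Lt.ai, Lt.c, Lt.a, Lt.a, Lt.a, Lt.a, Lt.ci, Lt.a] (hole_at (rf_7 hinv hr) 3 rfl) h
theorem dp_ci_8_s (hinv : ∀ x, g (inv x) = (g x)⁻¹) (hr : ∀ r ∈ rels, (r.map g).prod = 1) (hH : ∀ r ∈ subs, (r.map g).prod ∈ H)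
    (j u : ℕ) (hu : u < M) (h : dp_ci_8 j u = true) : Good (fa g) T MG M (cP g H) Lt.ci u := by
  unfold dp_ci_8 at h
  rcases brec_true h with h | h
  · exact dp_ci_6_s hinv hr hH j u hu h
  · exact dp_ci_7_s hinv hr hH j u hu h
theorem dp_ci_9_s (hinv : ∀ x, g (inv x) = (g x)⁻¹) (hr : ∀ r ∈ rels, (r.map g).prod = 1) (hH : ∀ r ∈ subs, (r.map g).prod ∈ H)
    (j u : ℕ) (hu : u < M) (h : dp_ci_9 j u = true) : Good (fa g) T MG M (cP g H) Lt.ci u := by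
  unfold dp_ci_9 at h
  rcases brec_true h with h | h
  · exact dp_ci_5_s hinv hr hH j u hu h
  · exact dp_ci_8_s hinv hr hH j u hu h
theorem dp_ci_10_s (hinv : ∀ x, g (inv x) = (g x)⁻¹) (hr : ∀ r ∈ rels, (r.map g).prod = 1) (hH : ∀ r ∈ subs, (r.map g).prod ∈ H)
    (j u : ℕ) (hu : u < M) (h : dp_ci_10 j u = true) : Good (fa g) T MG M (cP g H) Lt.ci u := by
  unfold dp_ci_10 at h
  rcases brec_true h with h | h
  · exact lS_good (T := T) (x := Lt.ci) (by decide) hu [Lt.b, Lt.ai, Lt.b, Lt.ci, Lt.bi, Lt.a, Lt.bi, Lt.c, Lt.a, Lt.a, Lt.b, Lt.ai, Lt.ai] (hole_at (rf_3 hinv hr) 1 rfl) h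
  · exact lS_good (T := T) (x := Lt.ci) (by decide) hu [Lt.ai, Lt.ai, Lt.ai, Lt.ai, Lt.c, Lt.ai, Lt.c, Lt.ai, Lt.bi, Lt.ai, Lt.ai, Lt.b, Lt.ci, Lt.a] (hole_at (rb_6 hinv hr) 0 rfl) h
theorem dp_ci_11_s (hinv : ∀ x, g (inv x) = (g x)⁻¹) (hr : ∀ r ∈ rels, (r.map g).prod = 1) (hH : ∀ r ∈ subs, (r.map g).prod ∈ H)
    (j u : ℕ) (hu : u < M) (h : dp_ci_11 j u = true) : Good (fa g) T MG M (cP g H) Lt.ci u := by
  unfold dp_ci_11 at h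
  rcases brec_true h with h | h
  · exact lF_good (T := T) (x := Lt.ci) (by decide) [Lt.a, Lt.ci, Lt.a, Lt.bi, Lt.a, Lt.a, Lt.b, Lt.c, Lt.ai, Lt.c, Lt.a, Lt.a, Lt.a, Lt.a] (hole_at (rf_7 hinv hr) 1 rfl) h
  · exact dp_ci_10_s hinv hr hH j u hu h
theorem dp_ci_12_s (hinv : ∀ x, g (inv x) = (g x)⁻¹) (hr : ∀ r ∈ rels, (r.map g).prod = 1) (hH : ∀ r ∈ subs, (r.map g).prod ∈ H)
    (j u : ℕ) (hu : u < M) (h : dp_ci_12 j u = true) : Good (fa g) T MG M (cP g H) Lt.ci u := by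
  unfold dp_ci_12 at h
  rcases brec_true h with h | h
  · exact lS_good (T := T) (x := Lt.ci) (by decide) hu [Lt.a, Lt.ci, Lt.a, Lt.bi, Lt.a, Lt.a, Lt.b, Lt.c, Lt.ai, Lt.c, Lt.a, Lt.a, Lt.a, Lt.a] (hole_at (rf_7 hinv hr) 1 rfl) h
  · exact lF_good (T := T) (x := Lt.ci) (by decide) [Lt.a, Lt.ci, Lt.bi, Lt.ai, Lt.ai, Lt.b, Lt.ai, Lt.c, Lt.ai, Lt.c, Lt.ai, Lt.ai, Lt.ai, Lt.ai] (hole_at (rb_7 hinv hr) 5 rfl) h
theorem dp_ci_13_s (hinv : ∀ x, g (inv x) = (g x)⁻¹) (hr : ∀ r ∈ rels, (r.map g).prod = 1) (hH : ∀ r ∈ subs, (r.map g).prod ∈ H)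
    (j u : ℕ) (hu : u < M) (h : dp_ci_13 j u = true) : Good (fa g) T MG M (cP g H) Lt.ci u := by
  unfold dp_ci_13 at h
  rcases brec_true h with h | h
  · exact lF_good (T := T) (x := Lt.ci) (by decide) [Lt.a, Lt.ci, Lt.a, Lt.b, Lt.a, Lt.bi, Lt.ai, Lt.b, Lt.a, Lt.a, Lt.c, Lt.ai, Lt.c, Lt.b] (hole_at (rf_5 hinv hr) 5 rfl) h
  · exact lF_good (T := T) (x := Lt.ci) (by decide) [Lt.ai, Lt.ai, Lt.ai, Lt.bi, Lt.ai, Lt.ai, Lt.b, Lt.c, Lt.b, Lt.ai, Lt.b] (hole_at (rb_2 hinv hr) 0 rfl) h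
theorem dp_ci_14_s (hinv : ∀ x, g (inv x) = (g x)⁻¹) (hr : ∀ r ∈ rels, (r.map g).prod = 1) (hH : ∀ r ∈ subs, (r.map g).prod ∈ H)
    (j u : ℕ) (hu : u < M) (h : dp_ci_14 j u = true) : Good (fa g) T MG M (cP g H) Lt.ci u := by
  unfold dp_ci_14 at h
  rcases brec_true h with h | h
  · exact dp_ci_12_s hinv hr hH j u hu h
  · exact dp_ci_13_s hinv hr hH j u hu h
theorem dp_ci_15_s (hinv : ∀ x, g (inv x) = (g x)⁻¹) (hr : ∀ r ∈ rels, (r.map g).prod = 1) (hH : ∀ r ∈ subs, (r.map g).prod ∈ H)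
    (j u : ℕ) (hu : u < M) (h : dp_ci_15 j u = true) : Good (fa g) T MG M (cP g H) Lt.ci u := by
  unfold dp_ci_15 at h
  rcases brec_true h with h | h
  · exact dp_ci_11_s hinv hr hH j u hu h
  · exact dp_ci_14_s hinv hr hH j u hu h
theorem dp_ci_16_s (hinv : ∀ x, g (inv x) = (g x)⁻¹) (hr : ∀ r ∈ rels, (r.map g).prod = 1) (hH : ∀ r ∈ subs, (r.map g).prod ∈ H)
    (j u : ℕ) (hu : u < M) (h : dp_ci_16 j u = true) : Good (fa g) T MG M (cP g H) Lt.ci u := by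
  unfold dp_ci_16 at h
  rcases brec_true h with h | h
  · exact dp_ci_9_s hinv hr hH j u hu h
  · exact dp_ci_15_s hinv hr hH j u hu h
theorem dp_ci_17_s (hinv : ∀ x, g (inv x) = (g x)⁻¹) (hr : ∀ r ∈ rels, (r.map g).prod = 1) (hH : ∀ r ∈ subs, (r.map g).prod ∈ H)
    (j u : ℕ) (hu : u < M) (h : dp_ci_17 j u = true) : Good (fa g) T MG M (cP g H) Lt.ci u := by
  unfold dp_ci_17 at h
  rcases brec_true h with h | h
  · exact dp_ci_3_s hinv hr hH j u hu h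
  · exact dp_ci_16_s hinv hr hH j u hu h
theorem dp_ci_18_s (hinv : ∀ x, g (inv x) = (g x)⁻¹) (hr : ∀ r ∈ rels, (r.map g).prod = 1) (hH : ∀ r ∈ subs, (r.map g).prod ∈ H)
    (j u : ℕ) (hu : u < M) (h : dp_ci_18 j u = true) : Good (fa g) T MG M (cP g H) Lt.ci u := by
  unfold dp_ci_18 at h
  rcases brec_true h with h | h
  · exact dp_ci_0_s hinv hr hH j u hu h
  · exact dp_ci_17_s hinv hr hH j u hu h
theorem dp_ci_19_s (hinv : ∀ x, g (inv x) = (g x)⁻¹) (hr : ∀ r ∈ rels, (r.map g).prod = 1) (hH : ∀ r ∈ subs, (r.map g).prod ∈ H)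
    (j u : ℕ) (hu : u < M) (h : dp_ci_19 j u = true) : Good (fa g) T MG M (cP g H) Lt.ci u := by
  unfold dp_ci_19 at h
  rcases brec_true h with h | h
  · exact lDef_good (T := T) (x := Lt.ci) (by decide) rfl h
  · exact dp_ci_18_s hinv hr hH j u hu h
theorem snd_ci (hinv : ∀ x, g (inv x) = (g x)⁻¹) (hr : ∀ r ∈ rels, (r.map g).prod = 1) (hH : ∀ r ∈ subs, (r.map g).prod ∈ H)
    (j u : ℕ) (hu : u < M) (h : disp_ci j u = true) : Good (fa g) T MG M (cP g H) Lt.ci u := by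
  unfold disp_ci at h
  rcases brec_true h with h | h
  · rcases brec_true h with h | h
    · exact lPar_good (T := T) (x := Lt.ci) (x' := Lt.c) (by decide) rfl (inv_rel hinv _ _ rfl) h
    · exact lF1_good (T := T) (x := Lt.ci) (by decide) .c (hole_at (rf_15 hinv hr) 0 rfl) h
  · exact dp_ci_19_s hinv hr hH j u hu h
theorem snc_ci (hinv : ∀ x, g (inv x) = (g x)⁻¹) (hr : ∀ r ∈ rels, (r.map g).prod = 1) (hH : ∀ r ∈ subs, (r.map g).prod ∈ H)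
    (j u : ℕ) (hu : u < M) (h : chk_ci j u = true) : (T Lt.ci u < A ∧ Good (fa g) T MG M (cP g H) Lt.ci u) ∨ (A ≤ T Lt.ci u ∧ MG u < A) := by
  unfold chk_ci at h
  cases hb : Nat.ble A (T_ci u) with
  | true => rw [hb] at h; exact Or.inr ⟨le_of_ble hb, le_of_ble h⟩
  | false => rw [hb] at h; exact Or.inl ⟨lt_of_ble_false hb, snd_ci hinv hr hH j u hu h⟩
theorem dM_0_s (hinv : ∀ x, g (inv x) = (g x)⁻¹) (hr : ∀ r ∈ rels, (r.map g).prod = 1) (j z1 z2 u : ℕ) (h : dM_0 j z1 z2 u = true) : GoodM (fa g) T MG M (cP g H) u := by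
  unfold dM_0 at h
  rcases brec_true h with h | h
  · rcases brec_true h with h | h
    · exact mCo_good (T := T) (y := .ai) (by decide) h
    · exact mCo_good (T := T) (y := .a) (by decide) h
  · rcases brec_true h with h | h
    · exact mCo_good (T := T) (y := .c) (by decide) h
    · exact mCo_good (T := T) (y := .bi) (by decide) h
theorem dM_1_s (hinv : ∀ x, g (inv x) = (g x)⁻¹) (hr : ∀ r ∈ rels, (r.map g).prod = 1) (j z1 z2 u : ℕ) (h : dM_1 j z1 z2 u = true) : GoodM (fa g) T MG M (cP g H) u := by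
  unfold dM_1 at h
  exact mCo_good (T := T) (y := .b) (by decide) h
theorem dM_2_s (hinv : ∀ x, g (inv x) = (g x)⁻¹) (hr : ∀ r ∈ rels, (r.map g).prod = 1) (j z1 z2 u : ℕ) (h : dM_2 j z1 z2 u = true) : GoodM (fa g) T MG M (cP g H) u := by
  unfold dM_2 at h
  exact mCo_good (T := T) (y := .ci) (by decide) h
theorem dM_3_s (hinv : ∀ x, g (inv x) = (g x)⁻¹) (hr : ∀ r ∈ rels, (r.map g).prod = 1) (j z1 z2 u : ℕ) (h : dM_3 j z1 z2 u = true) : GoodM (fa g) T MG M (cP g H) u := by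
  unfold dM_3 at h
  rcases brec_true h with h | h
  · rcases brec_true h with h | h
    · rcases brec_true h with h | h
      · exact mRel_good (T := T) (by decide) [Lt.ai, Lt.ai, Lt.b, Lt.c, Lt.b, Lt.ai, Lt.b, Lt.ci, Lt.ai] [Lt.b, Lt.a, Lt.a] (pair_at hinv (rb_2 hinv hr) 4 rfl) h
      · exact mRel_good (T := T) (by decide) [Lt.b, Lt.ai, Lt.b] [Lt.ci, Lt.bi, Lt.a, Lt.a, Lt.b, Lt.a, Lt.a, Lt.a, Lt.c] (pair_at hinv (rb_2 hinv hr) 8 rfl) h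
    · rcases brec_true h with h | h
      · exact mRel_good (T := T) (by decide) [Lt.c, Lt.b, Lt.ai, Lt.b, Lt.ci] [Lt.bi, Lt.a, Lt.a, Lt.b, Lt.a, Lt.a, Lt.a] (pair_at hinv (rb_2 hinv hr) 7 rfl) h
      · rcases brec_true h with h | h
        · exact mRel_good (T := T) (by decide) [Lt.c, Lt.bi, Lt.a, Lt.bi, Lt.ci] [Lt.ai, Lt.ai, Lt.ai, Lt.bi, Lt.ai, Lt.ai, Lt.b] (pair_at hinv (rf_2 hinv hr) 0 rfl) h
        · exact mRel_good (T := T) (by decide) [Lt.bi, Lt.a, Lt.bi, Lt.ci] [Lt.ci, Lt.ai, Lt.ai, Lt.ai, Lt.bi, Lt.ai, Lt.ai, Lt.b] (pair_at hinv (rf_2 hinv hr) 1 rfl) h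
  · rcases brec_true h with h | h
    · rcases brec_true h with h | h
      · exact mRel_good (T := T) (by decide) [Lt.bi] [Lt.c, Lt.b, Lt.ai, Lt.b, Lt.ci, Lt.ai, Lt.ai, Lt.ai, Lt.bi, Lt.ai, Lt.ai] (pair_at hinv (rf_2 hinv hr) 5 rfl) h
      · exact mRel_good (T := T) (by decide) [Lt.c, Lt.b, Lt.ai, Lt.b] [Lt.bi, Lt.a, Lt.a, Lt.b, Lt.a, Lt.a, Lt.a, Lt.c] (pair_at hinv (rb_2 hinv hr) 7 rfl) h
    · rcases brec_true h with h | h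
      · rcases brec_true h with h | h
        · exact mRel_good (T := T) (by decide) [Lt.b, Lt.ai] [Lt.a, Lt.a, Lt.b, Lt.a, Lt.bi, Lt.ai, Lt.ai, Lt.b, Lt.ai, Lt.b, Lt.a, Lt.bi] (pair_at hinv (rb_4 hinv hr) 0 rfl) h
        · exact mRel_good (T := T) (by decide) [Lt.a, Lt.bi, Lt.c, Lt.a] [Lt.b, Lt.c, Lt.bi, Lt.a, Lt.bi, Lt.c, Lt.a, Lt.a, Lt.bi, Lt.ai] (pair_at hinv (rf_3 hinv hr) 6 rfl) h
      · rcases brec_true h with h | h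
        · exact mRel_good (T := T) (by decide) [Lt.b, Lt.ai, Lt.b, Lt.a, Lt.bi, Lt.a, Lt.bi, Lt.a, Lt.a, Lt.b, Lt.a] [Lt.a, Lt.a, Lt.b] (pair_at hinv (rf_4 hinv hr) 7 rfl) h
        · rcases brec_true h with h | h
          · exact mRel_good (T := T) (by decide) [Lt.b, Lt.c, Lt.b, Lt.ai, Lt.b, Lt.ci, Lt.ai, Lt.ai, Lt.ai, Lt.bi] [Lt.a, Lt.a] (pair_at hinv (rb_2 hinv hr) 6 rfl) h
          · exact mRel_good (T := T) (by decide) [Lt.bi, Lt.a, Lt.a, Lt.b, Lt.a, Lt.ci, Lt.a] [Lt.ci, Lt.a, Lt.ci, Lt.ai, Lt.ai, Lt.ai, Lt.ai, Lt.c] (pair_at hinv (rf_6 hinv hr) 3 rfl) h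
theorem dM_4_s (hinv : ∀ x, g (inv x) = (g x)⁻¹) (hr : ∀ r ∈ rels, (r.map g).prod = 1) (j z1 z2 u : ℕ) (h : dM_4 j z1 z2 u = true) : GoodM (fa g) T MG M (cP g H) u := by
  unfold dM_4 at h
  rcases brec_true h with h | h
  · exact dM_2_s hinv hr j z1 z2 u h
  · exact dM_3_s hinv hr j z1 z2 u h
theorem dM_5_s (hinv : ∀ x, g (inv x) = (g x)⁻¹) (hr : ∀ r ∈ rels, (r.map g).prod = 1) (j z1 z2 u : ℕ) (h : dM_5 j z1 z2 u = true) : GoodM (fa g) T MG M (cP g H) u := by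
  unfold dM_5 at h
  rcases brec_true h with h | h
  · exact dM_1_s hinv hr j z1 z2 u h
  · exact dM_4_s hinv hr j z1 z2 u h
theorem dM_6_s (hinv : ∀ x, g (inv x) = (g x)⁻¹) (hr : ∀ r ∈ rels, (r.map g).prod = 1) (j z1 z2 u : ℕ) (h : dM_6 j z1 z2 u = true) : GoodM (fa g) T MG M (cP g H) u := by
  unfold dM_6 at h
  rcases brec_true h with h | h
  · rcases brec_true h with h | h
    · rcases brec_true h with h | h
      · exact mRel_good (T := T) (by decide) [Lt.b, Lt.ai, Lt.b, Lt.ai, Lt.bi, Lt.a, Lt.bi, Lt.a, Lt.a, Lt.b, Lt.ai, Lt.bi] [Lt.a, Lt.a] (pair_at hinv (rb_4 hinv hr) 0 rfl) h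
      · exact mRel_good (T := T) (by decide) [Lt.a, Lt.a, Lt.a] [Lt.bi, Lt.ai, Lt.ai, Lt.b, Lt.c, Lt.b, Lt.ai, Lt.b, Lt.ci] (pair_at hinv (rf_2 hinv hr) 9 rfl) h
    · rcases brec_true h with h | h
      · exact mRel_good (T := T) (by decide) [Lt.ai, Lt.ai, Lt.ci, Lt.b, Lt.ai, Lt.b, Lt.c, Lt.bi, Lt.a, Lt.bi, Lt.c, Lt.a] [Lt.b, Lt.ai] (pair_at hinv (rb_3 hinv hr) 3 rfl) h
      · exact mRel_good (T := T) (by decide) [Lt.a, Lt.bi, Lt.a, Lt.bi, Lt.a, Lt.a, Lt.b, Lt.ai, Lt.b, Lt.ai, Lt.ai] [Lt.ai, Lt.bi, Lt.ai, Lt.ai, Lt.b] (pair_at hinv (rf_10 hinv hr) 4 rfl) h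
  · rcases brec_true h with h | h
    · rcases brec_true h with h | h
      · exact mRel_good (T := T) (by decide) [Lt.a, Lt.a, Lt.a, Lt.c, Lt.bi, Lt.a, Lt.bi, Lt.ci, Lt.bi] [Lt.bi, Lt.ai, Lt.ai] (pair_at hinv (rf_2 hinv hr) 9 rfl) h
      · exact mRel_good (T := T) (by decide) [Lt.a, Lt.bi, Lt.a, Lt.bi, Lt.a, Lt.a, Lt.b, Lt.a, Lt.bi] [Lt.bi, Lt.a, Lt.bi, Lt.a, Lt.a] (pair_at hinv (rf_4 hinv hr) 10 rfl) h
    · rcases brec_true h with h | h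
      · exact mRel_good (T := T) (by decide) [Lt.bi, Lt.ai, Lt.c, Lt.ai, Lt.c, Lt.bi, Lt.ci] [Lt.a, Lt.bi, Lt.ai, Lt.b, Lt.a, Lt.a, Lt.c, Lt.ai] (pair_at hinv (rb_5 hinv hr) 6 rfl) h
      · exact mRel_good (T := T) (by decide) [Lt.a, Lt.a, Lt.bi, Lt.a, Lt.bi, Lt.a, Lt.a, Lt.b, Lt.ai, Lt.b, Lt.ai] [Lt.bi, Lt.ai, Lt.ai, Lt.b, Lt.a] (pair_at hinv (rf_10 hinv hr) 3 rfl) h
theorem dM_7_s (hinv : ∀ x, g (inv x) = (g x)⁻¹) (hr : ∀ r ∈ rels, (r.map g).prod = 1) (j z1 z2 u : ℕ) (h : dM_7 j z1 z2 u = true) : GoodM (fa g) T MG M (cP g H) u := by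
  unfold dM_7 at h
  rcases brec_true h with h | h
  · rcases brec_true h with h | h
    · rcases brec_true h with h | h
      · exact mRel_good (T := T) (by decide) [Lt.a, Lt.bi, Lt.ci, Lt.bi, Lt.a, Lt.a, Lt.b, Lt.a] [Lt.b, Lt.ci, Lt.ai, Lt.ai] (pair_at hinv (rf_2 hinv hr) 2 rfl) h
      · exact mRel_good (T := T) (by decide) [Lt.b, Lt.a, Lt.a, Lt.a, Lt.c, Lt.bi, Lt.a, Lt.bi, Lt.ci, Lt.bi] [Lt.ai, Lt.ai] (pair_at hinv (rf_2 hinv hr) 8 rfl) h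
    · rcases brec_true h with h | h
      · exact mRel_good (T := T) (by decide) [Lt.a, Lt.ci, Lt.ai, Lt.ai, Lt.bi, Lt.a, Lt.b, Lt.ai, Lt.bi, Lt.ai, Lt.c, Lt.ai] [Lt.c, Lt.b, Lt.ci] (pair_at hinv (rb_5 hinv hr) 13 rfl) h
      · exact mRel_good (T := T) (by decide) [Lt.b, Lt.ai, Lt.ai, Lt.ci, Lt.b, Lt.ai, Lt.b, Lt.ci, Lt.bi, Lt.a, Lt.bi, Lt.c] [Lt.ai, Lt.ai] (pair_at hinv (rf_3 hinv hr) 11 rfl) h
  · rcases brec_true h with h | h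
    · rcases brec_true h with h | h
      · exact mRel_good (T := T) (by decide) [Lt.bi, Lt.a, Lt.bi, Lt.a, Lt.a, Lt.b, Lt.a, Lt.bi, Lt.ai, Lt.ai, Lt.b, Lt.ai, Lt.b, Lt.a] [] (pair_at hinv (rf_4 hinv hr) 11 rfl) h
      · exact mRel_good (T := T) (by decide) [Lt.b, Lt.ai, Lt.b, Lt.ai, Lt.bi, Lt.a, Lt.bi] [Lt.a, Lt.a, Lt.b, Lt.a, Lt.bi, Lt.ai, Lt.ai] (pair_at hinv (rb_4 hinv hr) 0 rfl) h
    · rcases brec_true h with h | h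
      · exact mRel_good (T := T) (by decide) [Lt.a, Lt.bi, Lt.a, Lt.a, Lt.b, Lt.a, Lt.bi, Lt.ai, Lt.ai, Lt.b, Lt.ai, Lt.b] [Lt.b, Lt.ai] (pair_at hinv (rf_4 hinv hr) 12 rfl) h
      · exact mRel_good (T := T) (by decide) [Lt.ai, Lt.ai, Lt.ci, Lt.b, Lt.ai, Lt.b, Lt.c, Lt.bi, Lt.a, Lt.bi, Lt.c] [Lt.b, Lt.ai, Lt.ai] (pair_at hinv (rb_3 hinv hr) 3 rfl) h
theorem dM_8_s (hinv : ∀ x, g (inv x) = (g x)⁻¹) (hr : ∀ r ∈ rels, (r.map g).prod = 1) (j z1 z2 u : ℕ) (h : dM_8 j z1 z2 u = true) : GoodM (fa g) T MG M (cP g H) u := by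
  unfold dM_8 at h
  rcases brec_true h with h | h
  · exact dM_6_s hinv hr j z1 z2 u h
  · exact dM_7_s hinv hr j z1 z2 u h
theorem dM_9_s (hinv : ∀ x, g (inv x) = (g x)⁻¹) (hr : ∀ r ∈ rels, (r.map g).prod = 1) (j z1 z2 u : ℕ) (h : dM_9 j z1 z2 u = true) : GoodM (fa g) T MG M (cP g H) u := by
  unfold dM_9 at h
  rcases brec_true h with h | h
  · rcases brec_true h with h | h
    · rcases brec_true h with h | h
      · exact mRel_good (T := T) (by decide) [Lt.c, Lt.ai, Lt.ai, Lt.ai, Lt.ai, Lt.ci, Lt.a, Lt.ci, Lt.bi, Lt.ai, Lt.ai, Lt.b] [Lt.a, Lt.ci, Lt.a] (pair_at hinv (rb_7 hinv hr) 14 rfl) h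
      · exact mRel_good (T := T) (by decide) [Lt.ai, Lt.b, Lt.ai] [Lt.bi, Lt.ai, Lt.ai, Lt.b, Lt.ai, Lt.b, Lt.ai, Lt.ai, Lt.bi, Lt.ai, Lt.ai, Lt.b, Lt.a] (pair_at hinv (rf_10 hinv hr) 11 rfl) h
    · rcases brec_true h with h | h
      · exact mRel_good (T := T) (by decide) [Lt.a, Lt.b, Lt.ai, Lt.bi, Lt.ai, Lt.ai, Lt.b, Lt.ai, Lt.b, Lt.ai, Lt.bi, Lt.a] [Lt.ai, Lt.b] (pair_at hinv (rb_4 hinv hr) 8 rfl) h
      · exact mRel_good (T := T) (by decide) [Lt.ai, Lt.b, Lt.ai, Lt.ai] [Lt.bi, Lt.ai, Lt.ai, Lt.b, Lt.ai, Lt.b, Lt.ai, Lt.ai, Lt.bi, Lt.ai, Lt.ai, Lt.b] (pair_at hinv (rf_10 hinv hr) 11 rfl) h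
  · rcases brec_true h with h | h
    · rcases brec_true h with h | h
      · exact mRel_good (T := T) (by decide) [Lt.ci, Lt.a, Lt.ci, Lt.ai, Lt.ai, Lt.b, Lt.ai, Lt.b, Lt.c, Lt.ai] [Lt.ai, Lt.ai, Lt.ai, Lt.ai, Lt.ci] (pair_at hinv (rf_8 hinv hr) 0 rfl) h
      · exact mRel_good (T := T) (by decide) [Lt.a, Lt.b] [Lt.b, Lt.a, Lt.b, Lt.a, Lt.bi, Lt.a, Lt.bi, Lt.a, Lt.b, Lt.ai, Lt.b, Lt.ai, Lt.b, Lt.ai] (pair_at hinv (rb_9 hinv hr) 1 rfl) h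
    · rcases brec_true h with h | h
      · exact mRel_good (T := T) (by decide) [Lt.bi, Lt.a, Lt.bi] [Lt.c, Lt.ai, Lt.c, Lt.a, Lt.a, Lt.a, Lt.a, Lt.ci, Lt.a, Lt.ci, Lt.ai, Lt.ai] (pair_at hinv (rb_8 hinv hr) 7 rfl) h
      · exact mRel_good (T := T) (by decide) [Lt.ai, Lt.b, Lt.a, Lt.bi, Lt.a, Lt.bi] [Lt.bi, Lt.a, Lt.a, Lt.b, Lt.ai, Lt.bi, Lt.ai, Lt.ai] (pair_at hinv (rf_4 hinv hr) 8 rfl) h
theorem dM_10_s (hinv : ∀ x, g (inv x) = (g x)⁻¹) (hr : ∀ r ∈ rels, (r.map g).prod = 1) (j z1 z2 u : ℕ) (h : dM_10 j z1 z2 u = true) : GoodM (fa g) T MG M (cP g H) u := by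
  unfold dM_10 at h
  rcases brec_true h with h | h
  · rcases brec_true h with h | h
    · rcases brec_true h with h | h
      · exact mRel_good (T := T) (by decide) [Lt.a, Lt.ci, Lt.ai, Lt.ai, Lt.ai] [Lt.c, Lt.bi, Lt.a, Lt.a, Lt.b, Lt.a, Lt.ci, Lt.a, Lt.ci, Lt.a] (pair_at hinv (rb_6 hinv hr) 13 rfl) h
      · exact mRel_good (T := T) (by decide) [Lt.ai, Lt.c, Lt.ai, Lt.c, Lt.bi, Lt.ci, Lt.a, Lt.ci, Lt.ai, Lt.ai, Lt.bi, Lt.a, Lt.b, Lt.ai] [Lt.b] (pair_at hinv (rb_5 hinv hr) 7 rfl) h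
    · rcases brec_true h with h | h
      · exact mRel_good (T := T) (by decide) [Lt.ai, Lt.ai, Lt.bi, Lt.ai, Lt.ai, Lt.b, Lt.a, Lt.a, Lt.bi, Lt.a] [Lt.bi, Lt.a, Lt.bi, Lt.a, Lt.a, Lt.b] (pair_at hinv (rb_10 hinv hr) 11 rfl) h
      · exact mRel_good (T := T) (by decide) [Lt.bi, Lt.a, Lt.bi, Lt.a, Lt.a, Lt.b, Lt.a, Lt.bi, Lt.ai] [Lt.ai, Lt.bi, Lt.a, Lt.bi, Lt.a] (pair_at hinv (rf_4 hinv hr) 11 rfl) h
  · rcases brec_true h with h | h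
    · rcases brec_true h with h | h
      · exact mRel_good (T := T) (by decide) [Lt.a, Lt.b, Lt.a, Lt.bi, Lt.ai, Lt.b, Lt.a, Lt.a, Lt.c] [Lt.c, Lt.ai, Lt.c, Lt.bi, Lt.ci, Lt.a] (pair_at hinv (rf_5 hinv hr) 7 rfl) h
      · exact mRel_good (T := T) (by decide) [Lt.a, Lt.b] [Lt.ai, Lt.ci, Lt.b, Lt.ai, Lt.b, Lt.c, Lt.bi, Lt.a, Lt.bi, Lt.c, Lt.a, Lt.a] (pair_at hinv (rf_3 hinv hr) 10 rfl) h
    · rcases brec_true h with h | h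
      · exact mRel_good (T := T) (by decide) [Lt.bi, Lt.ai] [Lt.a, Lt.bi, Lt.ai, Lt.b, Lt.a, Lt.a, Lt.c, Lt.ai, Lt.c, Lt.b, Lt.ci, Lt.a, Lt.ci] (pair_at hinv (rb_5 hinv hr) 6 rfl) h
      · exact mRel_good (T := T) (by decide) [Lt.ai, Lt.ai, Lt.ci] [Lt.a, Lt.a, Lt.ci, Lt.a, Lt.ci, Lt.a, Lt.bi, Lt.a, Lt.a, Lt.b, Lt.c, Lt.ai] (pair_at hinv (rb_7 hinv hr) 2 rfl) h
theorem dM_11_s (hinv : ∀ x, g (inv x) = (g x)⁻¹) (hr : ∀ r ∈ rels, (r.map g).prod = 1) (j z1 z2 u : ℕ) (h : dM_11 j z1 z2 u = true) : GoodM (fa g) T MG M (cP g H) u := by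
  unfold dM_11 at h
  rcases brec_true h with h | h
  · exact dM_9_s hinv hr j z1 z2 u h
  · exact dM_10_s hinv hr j z1 z2 u h
theorem dM_12_s (hinv : ∀ x, g (inv x) = (g x)⁻¹) (hr : ∀ r ∈ rels, (r.map g).prod = 1) (j z1 z2 u : ℕ) (h : dM_12 j z1 z2 u = true) : GoodM (fa g) T MG M (cP g H) u := by
  unfold dM_12 at h
  rcases brec_true h with h | h
  · exact dM_8_s hinv hr j z1 z2 u h
  · exact dM_11_s hinv hr j z1 z2 u h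
theorem dM_13_s (hinv : ∀ x, g (inv x) = (g x)⁻¹) (hr : ∀ r ∈ rels, (r.map g).prod = 1) (j z1 z2 u : ℕ) (h : dM_13 j z1 z2 u = true) : GoodM (fa g) T MG M (cP g H) u := by
  unfold dM_13 at h
  rcases brec_true h with h | h
  · rcases brec_true h with h | h
    · rcases brec_true h with h | h
      · exact mRel_good (T := T) (by decide) [Lt.a, Lt.b, Lt.ai, Lt.bi, Lt.ai, Lt.c, Lt.ai, Lt.c] [Lt.b, Lt.a, Lt.a, Lt.c, Lt.ai, Lt.c, Lt.b] (pair_at hinv (rb_5 hinv hr) 3 rfl) h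
      · exact mRel_good (T := T) (by decide) [Lt.ai, Lt.ai, Lt.ai, Lt.bi, Lt.ai, Lt.ai, Lt.b, Lt.c] [Lt.c, Lt.bi, Lt.a, Lt.bi] (pair_at hinv (rb_2 hinv hr) 0 rfl) h
    · rcases brec_true h with h | h
      · exact mRel_good (T := T) (by decide) [Lt.b, Lt.a, Lt.a, Lt.a, Lt.c, Lt.bi] [Lt.ai, Lt.ai, Lt.b, Lt.c, Lt.b, Lt.ai] (pair_at hinv (rf_2 hinv hr) 8 rfl) h
      · exact mRel_good (T := T) (by decide) [Lt.a, Lt.bi, Lt.c, Lt.a, Lt.a, Lt.bi, Lt.ai, Lt.ai, Lt.ci, Lt.b, Lt.ai, Lt.b, Lt.c] [Lt.b] (pair_at hinv (rb_3 hinv hr) 11 rfl) h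
  · rcases brec_true h with h | h
    · rcases brec_true h with h | h
      · exact mRel_good (T := T) (by decide) [Lt.b, Lt.a, Lt.a, Lt.c, Lt.ai, Lt.c, Lt.b, Lt.ci, Lt.a, Lt.ci] [Lt.a, Lt.b, Lt.ai, Lt.bi, Lt.ai] (pair_at hinv (rf_5 hinv hr) 12 rfl) h
      · exact mRel_good (T := T) (by decide) [Lt.bi, Lt.a, Lt.a, Lt.b, Lt.a] [Lt.c, Lt.b, Lt.ai, Lt.b, Lt.ci, Lt.ai, Lt.ai] (pair_at hinv (rf_2 hinv hr) 5 rfl) h
    · rcases brec_true h with h | h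
      · exact mRel_good (T := T) (by decide) [Lt.bi, Lt.a, Lt.bi, Lt.c, Lt.a, Lt.a, Lt.bi, Lt.ai, Lt.ai, Lt.ci, Lt.b, Lt.ai] [Lt.ci, Lt.bi] (pair_at hinv (rb_3 hinv hr) 10 rfl) h
      · exact mRel_good (T := T) (by decide) [Lt.a, Lt.b, Lt.ai, Lt.bi, Lt.ai] [Lt.ai, Lt.b, Lt.ai, Lt.b, Lt.a, Lt.bi, Lt.a, Lt.bi, Lt.a] (pair_at hinv (rb_4 hinv hr) 8 rfl) h
theorem dM_14_s (hinv : ∀ x, g (inv x) = (g x)⁻¹) (hr : ∀ r ∈ rels, (r.map g).prod = 1) (j z1 z2 u : ℕ) (h : dM_14 j z1 z2 u = true) : GoodM (fa g) T MG M (cP g H) u := by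
  unfold dM_14 at h
  rcases brec_true h with h | h
  · rcases brec_true h with h | h
    · rcases brec_true h with h | h
      · exact mRel_good (T := T) (by decide) [Lt.a, Lt.b, Lt.a, Lt.bi, Lt.a, Lt.bi] [Lt.bi, Lt.a, Lt.b, Lt.a, Lt.bi, Lt.a, Lt.bi, Lt.a, Lt.bi, Lt.ai] (pair_at hinv (rf_9 hinv hr) 0 rfl) h
      · exact mRel_good (T := T) (by decide) [Lt.bi, Lt.a, Lt.a, Lt.b, Lt.ai, Lt.bi, Lt.ai, Lt.ai, Lt.b, Lt.ai] [Lt.ai, Lt.b, Lt.a, Lt.bi] (pair_at hinv (rb_4 hinv hr) 6 rfl) h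
    · rcases brec_true h with h | h
      · exact mRel_good (T := T) (by decide) [Lt.a, Lt.bi, Lt.a, Lt.bi, Lt.a, Lt.a, Lt.b, Lt.a, Lt.bi, Lt.ai, Lt.ai, Lt.b] [Lt.bi, Lt.a] (pair_at hinv (rf_4 hinv hr) 10 rfl) h
      · exact mRel_good (T := T) (by decide) [Lt.ci, Lt.a, Lt.ci, Lt.ai, Lt.ai, Lt.ai, Lt.ai, Lt.c] [Lt.bi, Lt.a, Lt.a, Lt.b, Lt.a, Lt.ci, Lt.a] (pair_at hinv (rb_6 hinv hr) 12 rfl) h
  · rcases brec_true h with h | h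
    · rcases brec_true h with h | h
      · exact mRel_good (T := T) (by decide) [Lt.ai, Lt.b, Lt.c, Lt.b, Lt.ai, Lt.b, Lt.ci, Lt.ai, Lt.ai] [Lt.a, Lt.b, Lt.a] (pair_at hinv (rb_2 hinv hr) 5 rfl) h
      · exact mRel_good (T := T) (by decide) [Lt.ai, Lt.b] [Lt.a, Lt.b, Lt.a, Lt.a, Lt.a, Lt.c, Lt.bi, Lt.a, Lt.bi, Lt.ci] (pair_at hinv (rb_2 hinv hr) 5 rfl) h
    · rcases brec_true h with h | h
      · exact mRel_good (T := T) (by decide) [Lt.c, Lt.b, Lt.ai, Lt.b, Lt.ci, Lt.ai, Lt.ai, Lt.ai, Lt.bi, Lt.ai, Lt.ai, Lt.b] [] (pair_at hinv (rb_2 hinv hr) 7 rfl) h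
      · exact mRel_good (T := T) (by decide) [Lt.a, Lt.bi] [Lt.b, Lt.ci, Lt.ai, Lt.ai, Lt.ai, Lt.bi, Lt.ai, Lt.ai, Lt.b, Lt.c] (pair_at hinv (rf_2 hinv hr) 2 rfl) h
theorem dM_15_s (hinv : ∀ x, g (inv x) = (g x)⁻¹) (hr : ∀ r ∈ rels, (r.map g).prod = 1) (j z1 z2 u : ℕ) (h : dM_15 j z1 z2 u = true) : GoodM (fa g) T MG M (cP g H) u := by
  unfold dM_15 at h
  rcases brec_true h with h | h
  · exact dM_13_s hinv hr j z1 z2 u h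
  · exact dM_14_s hinv hr j z1 z2 u h
theorem dM_16_s (hinv : ∀ x, g (inv x) = (g x)⁻¹) (hr : ∀ r ∈ rels, (r.map g).prod = 1) (j z1 z2 u : ℕ) (h : dM_16 j z1 z2 u = true) : GoodM (fa g) T MG M (cP g H) u := by
  unfold dM_16 at h
  rcases brec_true h with h | h
  · rcases brec_true h with h | h
    · rcases brec_true h with h | h
      · exact mRel_good (T := T) (by decide) [Lt.a, Lt.bi, Lt.ci, Lt.bi, Lt.a, Lt.a, Lt.b, Lt.a, Lt.a, Lt.a, Lt.c] [Lt.b] (pair_at hinv (rf_2 hinv hr) 2 rfl) h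
      · exact mRel_good (T := T) (by decide) [Lt.b, Lt.ai, Lt.b, Lt.ci, Lt.bi, Lt.a, Lt.bi, Lt.c, Lt.a, Lt.a] [Lt.c, Lt.a, Lt.a, Lt.bi] (pair_at hinv (rf_3 hinv hr) 1 rfl) h
    · rcases brec_true h with h | h
      · exact mRel_good (T := T) (by decide) [Lt.ai, Lt.b, Lt.ai, Lt.c, Lt.ai, Lt.c, Lt.ai, Lt.ai, Lt.ai, Lt.ai, Lt.ci] [Lt.a, Lt.b, Lt.c, Lt.ai] (pair_at hinv (rb_7 hinv hr) 9 rfl) h
      · exact mRel_good (T := T) (by decide) [Lt.ai, Lt.ai, Lt.ai, Lt.ai, Lt.c, Lt.ai, Lt.c] [Lt.c, Lt.ai, Lt.c, Lt.bi, Lt.a, Lt.a, Lt.b, Lt.a] (pair_at hinv (rb_6 hinv hr) 0 rfl) h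
  · rcases brec_true h with h | h
    · rcases brec_true h with h | h
      · exact mRel_good (T := T) (by decide) [Lt.bi, Lt.ai, Lt.ai, Lt.b, Lt.ai, Lt.c, Lt.ai, Lt.c, Lt.ai, Lt.ai, Lt.ai, Lt.ai, Lt.ci] [Lt.c, Lt.ai] (pair_at hinv (rb_7 hinv hr) 7 rfl) h
      · exact mRel_good (T := T) (by decide) [Lt.a, Lt.b, Lt.a, Lt.a] [Lt.ai, Lt.b, Lt.c, Lt.b, Lt.ai, Lt.b, Lt.ci, Lt.ai] (pair_at hinv (rf_2 hinv hr) 7 rfl) h
    · rcases brec_true h with h | h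
      · exact mRel_good (T := T) (by decide) [Lt.ci, Lt.ai, Lt.ai, Lt.ai, Lt.bi, Lt.ai, Lt.ai, Lt.b, Lt.c, Lt.b] [Lt.bi, Lt.a] (pair_at hinv (rb_2 hinv hr) 11 rfl) h
      · exact mRel_good (T := T) (by decide) [Lt.bi, Lt.a, Lt.bi, Lt.ci, Lt.bi, Lt.a, Lt.a] [Lt.ci, Lt.ai, Lt.ai, Lt.ai, Lt.bi] (pair_at hinv (rf_2 hinv hr) 1 rfl) h
theorem dM_17_s (hinv : ∀ x, g (inv x) = (g x)⁻¹) (hr : ∀ r ∈ rels, (r.map g).prod = 1) (j z1 z2 u : ℕ) (h : dM_17 j z1 z2 u = true) : GoodM (fa g) T MG M (cP g H) u := by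
  unfold dM_17 at h
  rcases brec_true h with h | h
  · rcases brec_true h with h | h
    · rcases brec_true h with h | h
      · exact mRel_good (T := T) (by decide) [Lt.ci, Lt.bi, Lt.a, Lt.a, Lt.b, Lt.a, Lt.a, Lt.a, Lt.c] [Lt.b, Lt.ai, Lt.b] (pair_at hinv (rf_2 hinv hr) 4 rfl) h
      · exact mRel_good (T := T) (by decide) [Lt.a] [Lt.b, Lt.ci, Lt.ai, Lt.ai, Lt.ai, Lt.bi, Lt.ai, Lt.ai, Lt.b, Lt.c, Lt.b] (pair_at hinv (rf_2 hinv hr) 2 rfl) h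
    · rcases brec_true h with h | h
      · exact mRel_good (T := T) (by decide) [Lt.c, Lt.bi, Lt.a, Lt.bi] [Lt.ai, Lt.ai, Lt.ai, Lt.bi, Lt.ai, Lt.ai, Lt.b, Lt.c] (pair_at hinv (rf_2 hinv hr) 0 rfl) h
      · exact mRel_good (T := T) (by decide) [Lt.bi, Lt.a, Lt.a, Lt.b, Lt.a, Lt.a, Lt.a, Lt.c] [Lt.c, Lt.b, Lt.ai, Lt.b] (pair_at hinv (rf_2 hinv hr) 5 rfl) h
  · rcases brec_true h with h | h
    · rcases brec_true h with h | h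
      · exact mRel_good (T := T) (by decide) [Lt.b, Lt.ci, Lt.ai, Lt.ai, Lt.ai, Lt.bi, Lt.ai, Lt.ai, Lt.b, Lt.c] [Lt.a, Lt.bi] (pair_at hinv (rb_2 hinv hr) 10 rfl) h
      · exact mRel_good (T := T) (by decide) [Lt.b, Lt.a, Lt.a, Lt.a, Lt.c, Lt.bi, Lt.a, Lt.bi] [Lt.ai, Lt.ai, Lt.b, Lt.c] (pair_at hinv (rf_2 hinv hr) 8 rfl) h
    · rcases brec_true h with h | h
      · exact mRel_good (T := T) (by decide) [Lt.ci, Lt.ai, Lt.ai, Lt.ai, Lt.bi, Lt.ai, Lt.ai, Lt.b, Lt.c] [Lt.bi, Lt.a, Lt.bi] (pair_at hinv (rb_2 hinv hr) 11 rfl) h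
      · rcases brec_true h with h | h
        · exact mRel_good (T := T) (by decide) [Lt.a, Lt.ci, Lt.bi, Lt.ai, Lt.ai, Lt.b, Lt.ai, Lt.c, Lt.ai, Lt.c, Lt.ai] [Lt.c, Lt.a, Lt.a, Lt.a] (pair_at hinv (rb_7 hinv hr) 5 rfl) h
        · exact mRel_good (T := T) (by decide) [Lt.c, Lt.b, Lt.ai, Lt.b, Lt.ci, Lt.ai] [Lt.bi, Lt.a, Lt.a, Lt.b, Lt.a, Lt.a] (pair_at hinv (rb_2 hinv hr) 7 rfl) h
theorem dM_18_s (hinv : ∀ x, g (inv x) = (g x)⁻¹) (hr : ∀ r ∈ rels, (r.map g).prod = 1) (j z1 z2 u : ℕ) (h : dM_18 j z1 z2 u = true) : GoodM (fa g) T MG M (cP g H) u := by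
  unfold dM_18 at h
  rcases brec_true h with h | h
  · exact dM_16_s hinv hr j z1 z2 u h
  · exact dM_17_s hinv hr j z1 z2 u h
theorem dM_19_s (hinv : ∀ x, g (inv x) = (g x)⁻¹) (hr : ∀ r ∈ rels, (r.map g).prod = 1) (j z1 z2 u : ℕ) (h : dM_19 j z1 z2 u = true) : GoodM (fa g) T MG M (cP g H) u := by
  unfold dM_19 at h
  rcases brec_true h with h | h
  · exact dM_15_s hinv hr j z1 z2 u h
  · exact dM_18_s hinv hr j z1 z2 u h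
theorem dM_20_s (hinv : ∀ x, g (inv x) = (g x)⁻¹) (hr : ∀ r ∈ rels, (r.map g).prod = 1) (j z1 z2 u : ℕ) (h : dM_20 j z1 z2 u = true) : GoodM (fa g) T MG M (cP g H) u := by
  unfold dM_20 at h
  rcases brec_true h with h | h
  · exact dM_12_s hinv hr j z1 z2 u h
  · exact dM_19_s hinv hr j z1 z2 u h
theorem dM_21_s (hinv : ∀ x, g (inv x) = (g x)⁻¹) (hr : ∀ r ∈ rels, (r.map g).prod = 1) (j z1 z2 u : ℕ) (h : dM_21 j z1 z2 u = true) : GoodM (fa g) T MG M (cP g H) u := by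
  unfold dM_21 at h
  rcases brec_true h with h | h
  · exact dM_5_s hinv hr j z1 z2 u h
  · exact dM_20_s hinv hr j z1 z2 u h
theorem dM_22_s (hinv : ∀ x, g (inv x) = (g x)⁻¹) (hr : ∀ r ∈ rels, (r.map g).prod = 1) (j z1 z2 u : ℕ) (h : dM_22 j z1 z2 u = true) : GoodM (fa g) T MG M (cP g H) u := by
  unfold dM_22 at h
  rcases brec_true h with h | h
  · exact dM_0_s hinv hr j z1 z2 u h
  · exact dM_21_s hinv hr j z1 z2 u h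
theorem sndM (hinv : ∀ x, g (inv x) = (g x)⁻¹) (hr : ∀ r ∈ rels, (r.map g).prod = 1) (u : ℕ) (h : chkM u = true) :
    MG u < A → MG u % M < u ∧ GoodM (fa g) T MG M (cP g H) u := by
  intro hA
  unfold chkM at h
  cases hb : Nat.ble A (MG u) with
  | true => exact absurd (le_of_ble hb) (by omega)
  | false =>
    rw [hb] at h
    obtain ⟨h1, h2⟩ := band_eq_true.1 h
    exact ⟨le_of_ble h1, dM_22_s hinv hr _ _ _ _ h2⟩
theorem sndN (hinv : ∀ x, g (inv x) = (g x)⁻¹) (hr : ∀ r ∈ rels, (r.map g).prod = 1) (hH : ∀ r ∈ subs, (r.map g).prod ∈ H)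
    (u : ℕ) (hu : u < M) (h : chkP u = true) : (∀ x, (T x u < A ∧ Good (fa g) T MG M (cP g H) x u) ∨ (A ≤ T x u ∧ MG u < A)) ∧ (MG u < A → MG u % M < u ∧ GoodM (fa g) T MG M (cP g H) u) := by
  unfold chkP at h
  cases hb : Nat.ble M u with
  | true => exact absurd (le_of_ble hb) (by omega)
  | false =>
    rw [hb] at h
    change chkN u = true at h
    unfold chkN at h
    obtain ⟨h0, h⟩ := band_eq_true.1 h
    obtain ⟨h1, h⟩ := band_eq_true.1 h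
    obtain ⟨h2, h⟩ := band_eq_true.1 h
    obtain ⟨h3, h⟩ := band_eq_true.1 h
    obtain ⟨h4, h⟩ := band_eq_true.1 h
    obtain ⟨h5, h⟩ := band_eq_true.1 h
    refine ⟨?_, sndM hinv hr u h⟩
    intro x
    cases x
    · exact snc_a hinv hr hH _ u hu h0
    · exact snc_ai hinv hr hH _ u hu h1
    · exact snc_b hinv hr hH _ u hu h2
    · exact snc_bi hinv hr hH _ u hu h3
    · exact snc_c hinv hr hH _ u hu h4
    · exact snc_ci hinv hr hH _ u hu h5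
theorem final (hinv : ∀ x, g (inv x) = (g x)⁻¹) (hr : ∀ r ∈ rels, (r.map g).prod = 1) (hH : ∀ r ∈ subs, (r.map g).prod ∈ H)
    (hall : ∀ u, u < M → chkP u = true) (hc : cntB liveP 9 0 = 240) :
    H.relIndex (Subgroup.closure (Set.range g)) ≤ 240 ∧ H.relIndex (Subgroup.closure (Set.range g)) ≠ 0 := by
  have hn := fun u hu => sndN hinv hr hH u hu (hall u hu)
  have h1 : ∀ x u, u < M → T x u < A → Good (fa g) T MG M (cP g H) x u := by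
    intro x u hu hx
    rcases (hn u hu).1 x with h | h
    · exact h.2
    · exact absurd h.1 (by omega)
  have h2 : ∀ u, u < M → MG u < A → GoodM (fa g) T MG M (cP g H) u := fun u hu h => ((hn u hu).2 h).2
  refine relIndex_le (M := M) (A := A) (T := T) (MG := MG) (c := cP g H) (by decide) cc_zero (sound_of_good h1 h2) ?_ ?_ ?_
  · intro u hu h
    exact ((hn u hu).2 h).1
  · intro x u hu h
    rcases (hn u hu).1 x with h' | h'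
    · exact h'.1
    · exact absurd h'.2 (by omega)
  · rw [← hc, ← cntB_spec]
    apply Finset.card_le_card
    intro u
    simp only [Finset.mem_filter, Finset.mem_Ico]
    rintro ⟨⟨_, h3⟩, h4⟩
    refine ⟨⟨Nat.zero_le _, lt_of_lt_of_le h3 (by decide)⟩, ?_⟩
    unfold liveP
    cases hb : Nat.ble M u with
    | true => exact absurd (le_of_ble hb) (by omega)
    | false => exact h4
end
end H35.TCMHeB
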